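import Mathlib

/-!
# Collineations of finite projective planes: basic facts

Joins and meets, the group of collineations, the equality of the numbers of fixed points and fixed
lines, orbit counts, and central collineations.
-/

set_option autoImplicit false
set_option linter.unusedSectionVars false

namespace Cfsg.Agent.H27.OW

open Configuration Configuration.ProjectivePlane

variable (P L : Type*) [Membership P L]

/-- The pairs of permutations preserving incidence. -/
def collGroup : Subgroup (Equiv.Perm P × Equiv.Perm L) where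
  carrier := {g | ∀ p l, g.1 p ∈ g.2 l ↔ p ∈ l}
  one_mem' := fun _ _ => Iff.rfl
  mul_mem' {g h} hg hh := fun p l => (hg (h.1 p) (h.2 l)).trans (hh p l)
  inv_mem' {g} hg := fun p l => by
    have h := hg (g.1⁻¹ p) (g.2⁻¹ l)
    simpa using h.symm

/-- The collineation group. -/
abbrev Coll := ↥(collGroup P L)

variable {P L}

noncomputable instance instActP : MulAction (Coll P L) P where
  smul g p := g.1.1 p
  one_smul _ := rfl
  mul_smul _ _ _ := rfl

noncomputable instance instActL : MulAction (Coll P L) L where
  smul g l := g.1.2 l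
  one_smul _ := rfl
  mul_smul _ _ _ := rfl

theorem smul_mem_smul (g : Coll P L) (p : P) (l : L) : g • p ∈ g • l ↔ p ∈ l := g.2 p l

theorem mem_smul_iff (g : Coll P L) (p : P) (l : L) : p ∈ g • l ↔ g⁻¹ • p ∈ l := by
  conv_lhs => rw [← smul_inv_smul g p, smul_mem_smul]

theorem smul_mem_iff (g : Coll P L) (p : P) (l : L) : g • p ∈ l ↔ p ∈ g⁻¹ • l := by
  conv_lhs => rw [← smul_inv_smul g l, smul_mem_smul]

theorem coll_ext {g h : Coll P L} (hp : ∀ p : P, g • p = h • p) (hl : ∀ l : L, g • l = h • l) :
    g = h :=
  Subtype.ext (Prod.ext (Equiv.ext hp) (Equiv.ext hl))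

instance [Finite P] [Finite L] : Finite (Coll P L) := Subtype.finite

variable [ProjectivePlane P L] [Finite P] [Finite L]

/-- The points of a line. -/
def pts (l : L) : Set P := {p | p ∈ l}

/-- The lines through a point. -/
def lns (p : P) : Set L := {l | p ∈ l}

theorem ncard_pts (l : L) : (pts (P := P) l).ncard = order P L + 1 := by
  rw [← pointCount_eq P l, pointCount, ← Nat.card_coe_set_eq]; rfl

theorem ncard_lns (p : P) : (lns (L := L) p).ncard = order P L + 1 := by
  rw [← lineCount_eq L p, lineCount, ← Nat.card_coe_set_eq]; rfl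

theorem two_le_order : 2 ≤ order P L := one_lt_order P L

theorem natCard_points : Nat.card P = order P L ^ 2 + order P L + 1 := by
  have := Fintype.ofFinite P
  rw [Nat.card_eq_fintype_card]; exact card_points P L

theorem exists_point_on_ne (l : L) (p : P) : ∃ q, q ∈ l ∧ q ≠ p := by
  by_contra h
  push Not at h
  have h1 : pts (P := P) l ⊆ {p} := fun q hq => h q hq
  have h2 := Set.ncard_le_ncard h1
  rw [ncard_pts, Set.ncard_singleton] at h2
  have := two_le_order (P := P) (L := L)
  omega

theorem exists_point_on_ne₂ (l : L) (p p' : P) : ∃ q, q ∈ l ∧ q ≠ p ∧ q ≠ p' := by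
  by_contra h
  push Not at h
  have h1 : pts (P := P) l ⊆ {p, p'} := fun q hq => by
    by_cases hp : q = p
    · exact Or.inl hp
    · exact Or.inr (h q hq hp)
  have h2 := Set.ncard_le_ncard h1
  rw [ncard_pts] at h2
  have h3 := Set.ncard_insert_le p ({p'} : Set P)
  rw [Set.ncard_singleton] at h3
  have := two_le_order (P := P) (L := L)
  omega

theorem exists_mem_line (p : P) : ∃ l : L, p ∈ l := by
  obtain ⟨l, -⟩ : ∃ l : L, p ∉ l := Nondegenerate.exists_line p
  obtain ⟨q, -, hq⟩ := exists_point_on_ne l p
  exact ⟨HasLines.mkLine hq, (HasLines.mkLine_ax hq).2⟩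

open Classical in
/-- A line through two points. -/
noncomputable def join (p q : P) : L :=
  if h : p ≠ q then HasLines.mkLine h else (exists_mem_line (L := L) p).choose

theorem left_mem_join (p q : P) : p ∈ (join p q : L) := by
  unfold join
  split
  · exact (HasLines.mkLine_ax _).1
  · exact (exists_mem_line (L := L) p).choose_spec

theorem right_mem_join (p q : P) : q ∈ (join p q : L) := by
  unfold join
  split
  · exact (HasLines.mkLine_ax _).2
  · next h =>
    push Not at h
    subst h
    exact (exists_mem_line (L := L) p).choose_spec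

theorem line_eq {p q : P} (hpq : p ≠ q) {l m : L} (hpl : p ∈ l) (hql : q ∈ l) (hpm : p ∈ m)
    (hqm : q ∈ m) : l = m :=
  (Nondegenerate.eq_or_eq hpl hql hpm hqm).resolve_left hpq

theorem point_eq {l m : L} (hlm : l ≠ m) {p q : P} (hpl : p ∈ l) (hpm : p ∈ m) (hql : q ∈ l)
    (hqm : q ∈ m) : p = q :=
  (Nondegenerate.eq_or_eq hpl hql hpm hqm).resolve_right hlm

theorem eq_join {p q : P} (hpq : p ≠ q) {l : L} (hp : p ∈ l) (hq : q ∈ l) : l = join p q :=
  line_eq hpq hp hq (left_mem_join p q) (right_mem_join p q)

theorem exists_meet (l m : L) : ∃ p : P, p ∈ l ∧ p ∈ m := by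
  by_cases h : l = m
  · subst h
    have h1 : (pts (P := P) l).Nonempty := Set.nonempty_of_ncard_ne_zero (by rw [ncard_pts]; omega)
    obtain ⟨p, hp⟩ := h1
    exact ⟨p, hp, hp⟩
  · exact ⟨_, HasPoints.mkPoint_ax h⟩

/-- A point on two lines. -/
noncomputable def meet (l m : L) : P := (exists_meet (P := P) l m).choose

theorem meet_mem_left (l m : L) : (meet l m : P) ∈ l := (exists_meet (P := P) l m).choose_spec.1

theorem meet_mem_right (l m : L) : (meet l m : P) ∈ m := (exists_meet (P := P) l m).choose_spec.2

theorem eq_meet {l m : L} (hlm : l ≠ m) {p : P} (hl : p ∈ l) (hm : p ∈ m) : p = meet l m :=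
  point_eq hlm hl hm (meet_mem_left l m) (meet_mem_right l m)

theorem line_ext {l m : L} (h : ∀ p : P, p ∈ l → p ∈ m) : l = m := by
  obtain ⟨p, hp, -⟩ := exists_point_on_ne l (meet (P := P) l l)
  obtain ⟨q, hq, hqp⟩ := exists_point_on_ne l p
  exact line_eq hqp hq hp (h q hq) (h p hp)

theorem exists_line_through_not_mem (p q : P) (hpq : p ≠ q) : ∃ l : L, p ∈ l ∧ q ∉ l := by
  by_contra h
  push Not at h
  have h1 : lns (L := L) p ⊆ {join p q} := fun l hl => eq_join hpq hl (h l hl)
  have h2 := Set.ncard_le_ncard h1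
  rw [ncard_lns, Set.ncard_singleton] at h2
  have := two_le_order (P := P) (L := L)
  omega

theorem exists_point_not_mem₂ (l m : L) : ∃ p : P, p ∉ l ∧ p ∉ m := by
  by_cases h : l = m
  · subst h
    obtain ⟨p, hp⟩ := Nondegenerate.exists_point (P := P) l
    exact ⟨p, hp, hp⟩
  obtain ⟨a, hal, ha⟩ := exists_point_on_ne (P := P) l (meet l m)
  obtain ⟨b, hbm, hb⟩ := exists_point_on_ne (P := P) m (meet l m)
  have hab : a ≠ b := fun e => ha (eq_meet h hal (e ▸ hbm))
  obtain ⟨q, hq, hqa, hqb⟩ := exists_point_on_ne₂ (P := P) (join a b : L) a b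
  have ham : a ∉ m := fun e => ha (eq_meet h hal e)
  have hbl : b ∉ l := fun e => hb (eq_meet h e hbm)
  exact ⟨q, fun e => hbl (line_eq hqa hq (left_mem_join a b) e hal ▸ right_mem_join a b),
    fun e => ham (line_eq hqb hq (right_mem_join a b) e hbm ▸ left_mem_join a b)⟩

theorem smul_join (g : Coll P L) {p q : P} (hpq : p ≠ q) :
    g • (join p q : L) = join (g • p) (g • q) :=
  eq_join (fun e => hpq (smul_left_cancel g e)) ((smul_mem_smul g _ _).2 (left_mem_join p q))
    ((smul_mem_smul g _ _).2 (right_mem_join p q))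

theorem smul_meet (g : Coll P L) {l m : L} (hlm : l ≠ m) :
    g • (meet l m : P) = meet (g • l) (g • m) :=
  eq_meet (fun e => hlm (smul_left_cancel g e)) ((smul_mem_smul g _ _).2 (meet_mem_left l m))
    ((smul_mem_smul g _ _).2 (meet_mem_right l m))

theorem eq_one_of_points {g : Coll P L} (h : ∀ p : P, g • p = p) : g = 1 := by
  refine coll_ext (fun p => by rw [one_smul, h p]) fun l => ?_
  rw [one_smul]
  refine line_ext fun p hp => ?_
  rw [mem_smul_iff] at hp
  rwa [show g⁻¹ • p = p from by rw [inv_smul_eq_iff, h p]] at hp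

theorem line_fixed {g : Coll P L} {p q : P} (hpq : p ≠ q) {l : L} (hp : p ∈ l) (hq : q ∈ l)
    (hgp : g • p = p) (hgq : g • q = q) : g • l = l := by
  rw [eq_join hpq hp hq, smul_join g hpq, hgp, hgq]

theorem point_fixed {g : Coll P L} {l m : L} (hlm : l ≠ m) {p : P} (hl : p ∈ l) (hm : p ∈ m)
    (hgl : g • l = l) (hgm : g • m = m) : g • p = p := by
  rw [eq_meet hlm hl hm, smul_meet g hlm, hgl, hgm]

theorem sum_ite_succ {α : Type*} [Fintype α] (f : α → Prop) [DecidablePred f] (n : ℕ) :
    (∑ x : α, if f x then n + 1 else 1) = Fintype.card α + n * (Finset.univ.filter f).card := by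
  rw [Finset.sum_congr rfl (fun x _ => show (if f x then n + 1 else 1) =
    1 + if f x then n else 0 by split_ifs <;> omega), Finset.sum_add_distrib, Finset.sum_const,
    smul_eq_mul, mul_one, ← Finset.sum_filter, Finset.sum_const, smul_eq_mul, mul_comm]
  rfl

/-- A collineation fixes as many points as lines. -/
theorem card_fixedBy_eq (g : Coll P L) :
    (MulAction.fixedBy P g).ncard = (MulAction.fixedBy L g).ncard := by
  classical
  have := Fintype.ofFinite P
  have := Fintype.ofFinite L
  have hp : ∀ p : P, (Finset.univ.filter fun l : L => p ∈ l ∧ g • p ∈ l).card =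
      if g • p = p then order P L + 1 else 1 := by
    intro p
    split_ifs with h
    · rw [← ncard_lns (L := L) p, lns, Set.ncard_eq_toFinset_card']
      congr 1; ext l; simp [h]
    · rw [Finset.card_eq_one]
      refine ⟨join p (g • p), ?_⟩
      ext l
      simp only [Finset.mem_filter, Finset.mem_univ, true_and, Finset.mem_singleton]
      exact ⟨fun hl => eq_join (Ne.symm h) hl.1 hl.2,
        fun hl => hl ▸ ⟨left_mem_join _ _, right_mem_join _ _⟩⟩
  have hl : ∀ l : L, (Finset.univ.filter fun p : P => p ∈ l ∧ g • p ∈ l).card =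
      if g • l = l then order P L + 1 else 1 := by
    intro l
    split_ifs with h
    · rw [← ncard_pts (P := P) l, pts, Set.ncard_eq_toFinset_card']
      congr 1; ext p
      have h2 : p ∈ l → g • p ∈ l := fun hp => h ▸ (smul_mem_smul g p l).2 hp
      simp only [Finset.mem_filter, Finset.mem_univ, true_and, Set.mem_toFinset, Set.mem_ofPred_eq]
      exact ⟨fun hp => hp.1, fun hp => ⟨hp, h2 hp⟩⟩
    · rw [Finset.card_eq_one]
      have hne : l ≠ g⁻¹ • l := fun e => h (smul_eq_iff_eq_inv_smul g |>.2 e)
      refine ⟨meet l (g⁻¹ • l), ?_⟩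
      ext p
      simp only [Finset.mem_filter, Finset.mem_univ, true_and, Finset.mem_singleton, smul_mem_iff]
      exact ⟨fun hp => eq_meet hne hp.1 hp.2,
        fun hp => hp ▸ ⟨meet_mem_left _ _, meet_mem_right _ _⟩⟩
  have hdouble : ∑ p : P, (Finset.univ.filter fun l : L => p ∈ l ∧ g • p ∈ l).card =
      ∑ l : L, (Finset.univ.filter fun p : P => p ∈ l ∧ g • p ∈ l).card :=
    Finset.sum_card_bipartiteAbove_eq_sum_card_bipartiteBelow (fun (p : P) (l : L) => p ∈ l ∧ g • p ∈ l)
  simp only [hp, hl] at hdouble
  rw [sum_ite_succ (fun p : P => g • p = p) (order P L), sum_ite_succ (fun l : L => g • l = l) (order P L),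
    card_points_eq_card_lines P L, Nat.add_left_cancel_iff] at hdouble
  have h0 := two_le_order (P := P) (L := L)
  have := Nat.eq_of_mul_eq_mul_left (by omega) hdouble
  rw [Set.ncard_eq_toFinset_card', Set.ncard_eq_toFinset_card']
  convert this using 2 <;> · ext x; simp

/-- A group of collineations has as many orbits on points as on lines. -/
theorem card_orbits_eq (H : Subgroup (Coll P L)) :
    Nat.card (MulAction.orbitRel.Quotient H P) = Nat.card (MulAction.orbitRel.Quotient H L) := by
  classical
  have := Fintype.ofFinite P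
  have := Fintype.ofFinite L
  have := Fintype.ofFinite H
  have h1 := MulAction.sum_card_fixedBy_eq_card_orbits_mul_card_group H P
  have h2 := MulAction.sum_card_fixedBy_eq_card_orbits_mul_card_group H L
  have h3 : ∀ a : H, Fintype.card (MulAction.fixedBy P a) = Fintype.card (MulAction.fixedBy L a) := by
    intro a
    have := card_fixedBy_eq (a : Coll P L)
    rw [← Nat.card_coe_set_eq, ← Nat.card_coe_set_eq] at this
    rw [← Nat.card_eq_fintype_card, ← Nat.card_eq_fintype_card]
    exact this
  rw [Finset.sum_congr rfl (fun a _ => h3 a), h2] at h1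
  rw [Nat.card_eq_fintype_card, Nat.card_eq_fintype_card]
  exact (Nat.eq_of_mul_eq_mul_right Fintype.card_pos h1).symm

/-! ### Central collineations -/

/-- `g` fixes every point of `a`. -/
def IsAxis (g : Coll P L) (a : L) : Prop := ∀ p : P, p ∈ a → g • p = p

/-- `g` fixes every line through `c`. -/
def IsCentre (g : Coll P L) (c : P) : Prop := ∀ l : L, c ∈ l → g • l = l

theorem IsAxis.fix {g : Coll P L} {a : L} (h : IsAxis g a) : g • a = a := by
  obtain ⟨p, hp, -⟩ := exists_point_on_ne a (meet (P := P) a a)
  obtain ⟨q, hq, hqp⟩ := exists_point_on_ne a p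
  exact line_fixed hqp hq hp (h q hq) (h p hp)

theorem IsCentre.fix {g : Coll P L} {c : P} (h : IsCentre g c) : g • c = c := by
  obtain ⟨l, hl⟩ := exists_mem_line (L := L) c
  obtain ⟨q, hq, hqc⟩ := exists_point_on_ne l c
  obtain ⟨m, hm, hqm⟩ := exists_line_through_not_mem (L := L) c q hqc.symm
  exact point_fixed (fun e : l = m => hqm (e ▸ hq)) hl hm (h l hl) (h m hm)

/-- An axis and a fixed point off the axis which is not the centre force the identity. -/
theorem eq_one_of_fixed {g : Coll P L} {a : L} {c x : P} (ha : IsAxis g a) (hc : IsCentre g c)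
    (hxa : x ∉ a) (hxc : x ≠ c) (hx : g • x = x) : g = 1 := by
  have hxl : ∀ l : L, x ∈ l → g • l = l := by
    intro l hl
    exact line_fixed (fun e : x = meet l a => hxa (e ▸ meet_mem_right l a)) hl (meet_mem_left l a)
      hx (ha _ (meet_mem_right l a))
  have hout : ∀ z : P, z ∉ (join c x : L) → g • z = z := by
    intro z hz
    refine point_fixed (l := (join c z : L)) (m := join x z) ?_ (right_mem_join c z)
      (right_mem_join x z) (hc _ (left_mem_join c z)) (hxl _ (left_mem_join x z))
    intro e
    refine hz ?_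
    have h := left_mem_join (L := L) x z
    rw [← e] at h
    rw [← eq_join hxc.symm (left_mem_join c z) h]
    exact right_mem_join c z
  refine eq_one_of_points fun z => ?_
  by_cases hz : z ∈ (join c x : L)
  · obtain ⟨y, hy⟩ := Nondegenerate.exists_point (P := P) (join c x : L)
    have hzy : z ≠ y := fun e => hy (e ▸ hz)
    set m : L := join z y with hm
    have hne : (join c x : L) ≠ m := fun e => hy (e ▸ right_mem_join z y)
    obtain ⟨w, hw, hwz, hwy⟩ := exists_point_on_ne₂ m z y
    have hwo : w ∉ (join c x : L) := fun e =>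
      hwz (point_eq hne e hw hz (left_mem_join z y))
    exact point_fixed hne hz (left_mem_join z y) (hc _ (left_mem_join c x))
      (line_fixed hwy hw (right_mem_join z y) (hout w hwo) (hout y hy))
  · exact hout z hz

/-- A collineation with an axis has a centre. -/
theorem IsAxis.exists_centre {g : Coll P L} {a : L} (h : IsAxis g a) :
    ∃ c : P, IsCentre g c := by
  by_cases hx : ∃ x : P, x ∉ a ∧ g • x = x
  · obtain ⟨x, hxa, hx⟩ := hx
    exact ⟨x, fun l hl => line_fixed (fun e : x = meet l a => hxa (e ▸ meet_mem_right l a)) hl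
      (meet_mem_left l a) hx (h _ (meet_mem_right l a))⟩
  push Not at hx
  obtain ⟨x, hxa⟩ := Nondegenerate.exists_point (P := P) a
  have hfix : ∀ y : P, y ∉ a → g • (join y (g • y) : L) = join y (g • y) := by
    intro y hy
    have hgy : g • y ∉ a := fun e => hy (by
      have := (smul_mem_iff g y a).1 e
      rwa [show g⁻¹ • a = a from by rw [inv_smul_eq_iff, h.fix]] at this)
    set j : L := join y (g • y) with hj
    have hz : g • (meet j a : P) = meet j a := h _ (meet_mem_right j a)
    have hne : g • y ≠ (meet j a : P) := fun e => hgy (e ▸ meet_mem_right j a)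
    exact line_eq hne ((smul_mem_smul g _ _).2 (left_mem_join y (g • y)))
      (by rw [← hz]; exact (smul_mem_smul g _ _).2 (meet_mem_left j a)) (right_mem_join y (g • y))
      (meet_mem_left j a)
  refine ⟨meet (join x (g • x)) a, fun l hl => ?_⟩
  by_cases hla : l = a
  · rw [hla]; exact h.fix
  obtain ⟨y, hy, hyc⟩ := exists_point_on_ne l (meet (join x (g • x)) a : P)
  have hya : y ∉ a := fun e => hyc (point_eq hla hy e hl (meet_mem_right _ _))
  set m : L := join y (g • y) with hm
  have hma : m ≠ a := fun e => hya (e ▸ left_mem_join y (g • y))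
  have hja : (join x (g • x) : L) ≠ a := fun e => hxa (e ▸ left_mem_join x (g • x))
  have hcm : (meet (join x (g • x)) a : P) ∈ m := by
    by_cases hmj : m = join x (g • x)
    · rw [hmj]; exact meet_mem_left _ _
    have hzfix : g • (meet m (join x (g • x)) : P) = meet m (join x (g • x)) :=
      point_fixed hmj (meet_mem_left _ _) (meet_mem_right _ _) (hfix y hya) (hfix x hxa)
    have hza : (meet m (join x (g • x)) : P) ∈ a := by
      by_contra hza
      exact hx _ hza hzfix
    rw [← eq_meet hja (meet_mem_right _ _) hza]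
    exact meet_mem_left _ _
  rw [line_eq hyc hy hl (left_mem_join y (g • y)) hcm]
  exact hfix y hya

/-- A point off the axis fixed by a nontrivial central collineation is the centre. -/
theorem eq_centre_of_fixed {g : Coll P L} {a : L} {c x : P} (ha : IsAxis g a) (hc : IsCentre g c)
    (hg : g ≠ 1) (hx : g • x = x) : x ∈ a ∨ x = c := by
  by_contra h
  push Not at h
  exact hg (eq_one_of_fixed ha hc h.1 h.2 hx)

theorem axis_unique {g : Coll P L} {a a' : L} (ha : IsAxis g a) (ha' : IsAxis g a') (hg : g ≠ 1) :
    a = a' := by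
  by_contra hne
  obtain ⟨c, hc⟩ := ha.exists_centre
  obtain ⟨x, hx, hxm, hxc⟩ := exists_point_on_ne₂ a' (meet a a') c
  have hxa : x ∉ a := fun e => hxm (eq_meet hne e hx)
  exact hg (eq_one_of_fixed ha hc hxa hxc (ha' x hx))

end Cfsg.Agent.H27.OW
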