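import Mathlib

/-!
# Small facts on actions of `p`-groups
-/

set_option autoImplicit false
set_option linter.unusedSectionVars false

namespace Cfsg.Agent.H27.OW

variable {G α : Type*} [Group G] [MulAction G α]

/-- An invariant set as a set with action. -/
def subAct (H : Subgroup G) (s : Set α) (hs : ∀ g ∈ H, ∀ x ∈ s, g • x ∈ s) : SubMulAction H α where
  carrier := s
  smul_mem' g x hx := hs g g.2 x hx

theorem card_fixed_modEq [Finite α] {q : ℕ} [Fact q.Prime] {H : Subgroup G} (hH : IsPGroup q H)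
    (s : Set α) (hs : ∀ g ∈ H, ∀ x ∈ s, g • x ∈ s) :
    s.ncard ≡ {x ∈ s | ∀ g ∈ H, g • x = x}.ncard [MOD q] := by
  have h : Nat.card (subAct H s hs) ≡
      Nat.card (MulAction.fixedPoints H (subAct H s hs)) [MOD q] :=
    hH.card_modEq_card_fixedPoints (subAct H s hs)
  have e1 : Nat.card (subAct H s hs) = s.ncard := Nat.card_coe_set_eq s
  have e2 : Nat.card (MulAction.fixedPoints H (subAct H s hs)) =
      {x ∈ s | ∀ g ∈ H, g • x = x}.ncard := by
    rw [← Nat.card_coe_set_eq]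
    exact Nat.card_congr
      { toFun := fun x => ⟨x.1.1, x.1.2, fun g hg => congrArg Subtype.val (x.2 ⟨g, hg⟩)⟩
        invFun := fun x => ⟨⟨x.1, x.2.1⟩, fun g => Subtype.ext (x.2.2 g g.2)⟩
        left_inv := fun _ => rfl
        right_inv := fun _ => rfl }
  rwa [e1, e2] at h

theorem exists_fixed_in_set [Finite α] {q : ℕ} [Fact q.Prime] {H : Subgroup G} (hH : IsPGroup q H)
    (s : Set α) (hs : ∀ g ∈ H, ∀ x ∈ s, g • x ∈ s) (hq : ¬ q ∣ s.ncard) :
    ∃ x ∈ s, ∀ g ∈ H, g • x = x := by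
  by_contra hcon
  refine hq (Nat.modEq_zero_iff_dvd.1 ((card_fixed_modEq hH s hs).trans ?_))
  rw [show {x ∈ s | ∀ g ∈ H, g • x = x} = ∅ from
    Set.eq_empty_iff_forall_notMem.2 fun x hx => hcon ⟨x, hx.1, hx.2⟩, Set.ncard_empty]

theorem ncard_orbit_mul_card (H : Subgroup G) (x : α) :
    (MulAction.orbit H x).ncard * Nat.card ↥(H ⊓ MulAction.stabilizer G x) = Nat.card H := by
  have e : Nat.card ↥(H ⊓ MulAction.stabilizer G x) = Nat.card (MulAction.stabilizer H x) :=
    Nat.card_congr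
      { toFun := fun g => ⟨⟨g.1, g.2.1⟩, g.2.2⟩
        invFun := fun g => ⟨g.1.1, g.1.2, g.2⟩
        left_inv := fun _ => rfl
        right_inv := fun _ => rfl }
  rw [e, ← Nat.card_coe_set_eq, ← Nat.card_prod]
  exact Nat.card_congr (MulAction.orbitProdStabilizerEquivGroup H x)

theorem dvd_ncard_of_orbit [Finite α] (H : Subgroup G) {d : ℕ} (s : Set α)
    (hinv : ∀ g ∈ H, ∀ x ∈ s, g • x ∈ s)
    (hd : ∀ x ∈ s, d ∣ (MulAction.orbit H x).ncard) : d ∣ s.ncard := by
  induction hk : s.ncard using Nat.strong_induction_on generalizing s with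
  | _ k ih =>
    subst hk
    rcases s.eq_empty_or_nonempty with rfl | ⟨x, hx⟩
    · simp
    have hsub : MulAction.orbit H x ⊆ s := by rintro _ ⟨g, rfl⟩; exact hinv g g.2 x hx
    rw [← Set.ncard_sdiff_add_ncard_of_subset hsub]
    refine Nat.dvd_add (ih _ ?_ (s \ MulAction.orbit H x) ?_ (fun y hy => hd y hy.1) rfl) (hd x hx)
    · rw [← Set.ncard_sdiff_add_ncard_of_subset hsub (ht := s.toFinite)]
      have : 0 < (MulAction.orbit H x).ncard :=
        (Set.ncard_pos (Set.toFinite _)).2 (MulAction.nonempty_orbit x)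
      omega
    · rintro g hg y ⟨hy, hy'⟩
      exact ⟨hinv g hg y hy, fun e => hy' (by
        have := MulAction.mem_orbit_of_mem_orbit (⟨g, hg⟩ : H)⁻¹ e
        rwa [Subgroup.smul_def, Subgroup.coe_inv, inv_smul_smul] at this)⟩

/-- A `q`-power dividing the group order divides the order of a Sylow subgroup. -/
theorem dvd_card_sylow [Finite G] {q k : ℕ} [Fact q.Prime] (T : Sylow q G) (hk : q ^ k ∣ Nat.card G) :
    q ^ k ∣ Nat.card T := by
  rw [Sylow.card_eq_multiplicity]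
  exact pow_dvd_pow q (((Fact.out : q.Prime).pow_dvd_iff_le_factorization Nat.card_pos.ne').1 hk)

/-- The argument of Witt: a maximal `q`-subgroup and a conjugate inside `H`. -/
theorem exists_mem_normalizer [Finite G] {q : ℕ} [Fact q.Prime] {H U : Subgroup G}
    (hU : IsPGroup q U) (hUH : U ≤ H)
    (hmax : ∀ W : Subgroup G, W ≤ H → IsPGroup q W → Nat.card W ≤ Nat.card U)
    (w : G) (hw : ∀ u ∈ U, w * u * w⁻¹ ∈ H) :
    ∃ h ∈ H, h * w ∈ Subgroup.normalizer (U : Set G) := by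
  have hsyl : ∀ V : Subgroup G, V ≤ H → IsPGroup q V → Nat.card V = Nat.card U →
      ∃ P : Sylow q H, (P : Subgroup H) = V.subgroupOf H := by
    intro V hV hVq hVc
    obtain ⟨P, hP⟩ :=
      (IsPGroup.of_equiv hVq (Subgroup.subgroupOfEquivOfLe hV).symm).exists_le_sylow
    refine ⟨P, (Subgroup.eq_of_le_of_card_ge hP ?_).symm⟩
    rw [Nat.card_congr (Subgroup.subgroupOfEquivOfLe hV).toEquiv, hVc]
    have h1 := hmax ((P : Subgroup H).map H.subtype)
      (Subgroup.map_subtype_le _) (P.isPGroup'.map _)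
    rwa [Subgroup.card_subtype] at h1
  obtain ⟨P, hP⟩ := hsyl U hUH hU rfl
  have hwle : U.map (MulAut.conj w).toMonoidHom ≤ H := by
    rintro _ ⟨u, hu, rfl⟩
    exact hw u hu
  obtain ⟨Q, hQ⟩ := hsyl _ hwle (hU.map _)
    (Nat.card_congr (Subgroup.equivMapOfInjective U _ (MulAut.conj w).injective).toEquiv).symm
  obtain ⟨h, hh⟩ := MulAction.exists_smul_eq H Q P
  refine ⟨h, h.2, Subgroup.mem_normalizer_iff.2 fun u => ?_⟩
  have key : ∀ u : G, u ∈ U → (h : G) * w * u * ((h : G) * w)⁻¹ ∈ U := by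
    intro u hu
    have h1 : (⟨w * u * w⁻¹, hw u hu⟩ : H) ∈ (Q : Subgroup H) := by
      rw [hQ, Subgroup.mem_subgroupOf]; exact ⟨u, hu, rfl⟩
    have h2 : (MulAut.conj h) ⟨w * u * w⁻¹, hw u hu⟩ ∈ (P : Subgroup H) := by
      rw [← hh, Sylow.coe_subgroup_smul]
      exact Subgroup.smul_mem_pointwise_smul _ _ _ h1
    rw [hP, Subgroup.mem_subgroupOf] at h2
    simpa [mul_assoc] using h2
  refine ⟨key u, fun hu => ?_⟩
  have hmap : U.map (MulAut.conj ((h : G) * w)).toMonoidHom = U := by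
    refine Subgroup.eq_of_le_of_card_ge (by rintro _ ⟨v, hv, rfl⟩; exact key v hv) ?_
    rw [← Nat.card_congr
      (Subgroup.equivMapOfInjective U _ (MulAut.conj ((h : G) * w)).injective).toEquiv]
  rw [← hmap] at hu
  obtain ⟨v, hv, hv'⟩ := hu
  exact (MulAut.conj ((h : G) * w)).injective hv' ▸ hv

/-- A `2`-element outside a kernel has an involution as a power. -/
theorem exists_involution_pow {M : Type*} [Group M] (τ : M) (hτ : τ ≠ 1) {k : ℕ}
    (hk : τ ^ (2 ^ k) = 1) : ∃ j : ℕ, τ ^ j ≠ 1 ∧ τ ^ j * τ ^ j = 1 := by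
  induction k generalizing τ with
  | zero => exact absurd (by simpa using hk) hτ
  | succ k ih =>
    by_cases h : τ * τ = 1
    · exact ⟨1, by simpa using hτ, by simpa using h⟩
    · obtain ⟨j, hj, hj'⟩ := ih (τ * τ) h (by rw [← pow_two, ← pow_mul, ← pow_succ']; exact hk)
      exact ⟨2 * j, by rwa [pow_mul, pow_two], by rwa [pow_mul, pow_two]⟩

/-- An element has a `2`-power order power acting in the same way on a swapped pair. -/
theorem exists_two_part_swap [Finite G] {w : G} {u v : α} (h1 : w • u = v) (h2 : w • v = u) :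
    ∃ m k : ℕ, (w ^ m) ^ (2 ^ k) = 1 ∧ w ^ m • u = v := by
  obtain ⟨k, m, hm, hwm⟩ := Nat.exists_eq_pow_mul_and_not_dvd (orderOf_pos w).ne' 2 (by norm_num)
  refine ⟨m, k, by rw [← pow_mul, mul_comm, ← hwm, pow_orderOf_eq_one], ?_⟩
  have hsq : ∀ i : ℕ, w ^ (2 * i) • u = u := by
    intro i
    induction i with
    | zero => simp
    | succ i ih => rw [show 2 * (i + 1) = 2 * i + 1 + 1 from by omega, pow_succ, pow_succ, mul_smul,
        mul_smul, h1, h2, ih]
  obtain ⟨i, rfl⟩ : ∃ i, m = 2 * i + 1 := ⟨m / 2, by omega⟩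
  rw [pow_succ', mul_smul, hsq, h1]

/-- A maximal `q`-subgroup of `H` above `S`, of greatest order. -/
theorem exists_max_ge [Finite G] {q : ℕ} [Fact q.Prime] {H S : Subgroup G} (hS : IsPGroup q S)
    (hSH : S ≤ H) : ∃ T : Subgroup G, S ≤ T ∧ T ≤ H ∧ IsPGroup q T ∧
      ∀ W : Subgroup G, W ≤ H → IsPGroup q W → Nat.card W ≤ Nat.card T := by
  obtain ⟨P, hP⟩ :=
    (IsPGroup.of_equiv hS (Subgroup.subgroupOfEquivOfLe hSH).symm).exists_le_sylow
  refine ⟨(P : Subgroup H).map H.subtype, fun x hx => ?_, Subgroup.map_subtype_le _,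
    P.isPGroup'.map _, fun W hW hWq => ?_⟩
  · exact ⟨⟨x, hSH hx⟩, hP (Subgroup.mem_subgroupOf.2 hx), rfl⟩
  · obtain ⟨Q, hQ⟩ :=
      (IsPGroup.of_equiv hWq (Subgroup.subgroupOfEquivOfLe hW).symm).exists_le_sylow
    rw [Subgroup.card_subtype, ← Nat.card_congr (Subgroup.subgroupOfEquivOfLe hW).toEquiv]
    refine (Subgroup.card_le_of_le hQ).trans ?_
    rw [Sylow.card_eq_multiplicity, Sylow.card_eq_multiplicity]

end Cfsg.Agent.H27.OW
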