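import Mathlib
import Cfsg.Agent.H27.OW.Basic

/-!
# Collineations: duality and centres
-/

set_option autoImplicit false
set_option linter.unusedSectionVars false

namespace Cfsg.Agent.H27.OW

open Configuration Configuration.ProjectivePlane

variable (P L : Type*) [Membership P L]

/-- A collineation read in the dual configuration. -/
def dualColl : Coll P L ≃* Coll (Dual L) (Dual P) where
  toFun g := ⟨(g.1.2, g.1.1), fun l p => g.2 p l⟩
  invFun g := ⟨(g.1.2, g.1.1), fun p l => g.2 l p⟩
  left_inv _ := rfl
  right_inv _ := rfl
  map_mul' _ _ := rfl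

variable {P L} [ProjectivePlane P L] [Finite P] [Finite L]

theorem isCentre_iff_dual (g : Coll P L) (c : P) :
    IsCentre g c ↔ IsAxis (P := Dual L) (L := Dual P) (dualColl P L g) c := Iff.rfl

theorem isAxis_iff_dual (g : Coll P L) (a : L) :
    IsAxis g a ↔ IsCentre (P := Dual L) (L := Dual P) (dualColl P L g) a := Iff.rfl

theorem IsCentre.exists_axis {g : Coll P L} {c : P} (h : IsCentre g c) : ∃ a : L, IsAxis g a :=
  IsAxis.exists_centre (P := Dual L) (L := Dual P) (g := dualColl P L g) h

theorem centre_unique {g : Coll P L} {c c' : P} (h : IsCentre g c) (h' : IsCentre g c')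
    (hg : g ≠ 1) : c = c' :=
  axis_unique (P := Dual L) (L := Dual P) (g := dualColl P L g) h h'
    (fun e => hg ((dualColl P L).injective (by rw [map_one]; exact e)))

/-- A line fixed by a nontrivial central collineation is the axis or passes through the centre. -/
theorem eq_axis_of_fixed {g : Coll P L} {a : L} {c : P} (ha : IsAxis g a) (hc : IsCentre g c)
    (hg : g ≠ 1) {l : L} (hl : g • l = l) : c ∈ l ∨ l = a :=
  eq_centre_of_fixed (P := Dual L) (L := Dual P) (g := dualColl P L g) (a := c) (c := a) hc ha
    (fun e => hg ((dualColl P L).injective (by rw [map_one]; exact e))) hl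

end Cfsg.Agent.H27.OW
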