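import Mathlib
import Cfsg.Agent.H27.OW.Dual

/-!
# Groups of central collineations

Groups with a common axis or centre, the elations with a common axis, their counting and the
divisibility facts of Gleason's lemma.
-/

set_option autoImplicit false
set_option linter.unusedSectionVars false

namespace Cfsg.Agent.H27.OW

open Configuration Configuration.ProjectivePlane
open scoped commutatorElement

/-- If all stabilisers on an invariant set equal `M`, the index of `M` divides the size of the set. -/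
theorem index_dvd_ncard {H α : Type*} [Group H] [Finite α] [MulAction H α] (M : Subgroup H)
    (s : Set α) (hinv : ∀ (g : H) (x : α), x ∈ s → g • x ∈ s)
    (hstab : ∀ x ∈ s, MulAction.stabilizer H x = M) : M.index ∣ s.ncard := by
  induction hk : s.ncard using Nat.strong_induction_on generalizing s with
  | _ k ih =>
    subst hk
    rcases s.eq_empty_or_nonempty with rfl | ⟨x, hx⟩
    · simp
    have hsub : MulAction.orbit H x ⊆ s := by rintro _ ⟨g, rfl⟩; exact hinv g x hx
    have horb : (MulAction.orbit H x).ncard = M.index := by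
      rw [← Nat.card_coe_set_eq, ← hstab x hx,
        Nat.card_congr (MulAction.orbitEquivQuotientStabilizer H x)]
      rfl
    rw [← Set.ncard_sdiff_add_ncard_of_subset hsub, horb]
    refine Nat.dvd_add ?_ dvd_rfl
    refine ih _ ?_ (s \ MulAction.orbit H x) ?_ (fun y hy => hstab y hy.1) rfl
    · rw [← Set.ncard_sdiff_add_ncard_of_subset hsub (ht := s.toFinite)]
      have : 0 < (MulAction.orbit H x).ncard :=
        (Set.ncard_pos (Set.toFinite _)).2 (MulAction.nonempty_orbit x)
      omega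
    · rintro g y ⟨hy, hy'⟩
      exact ⟨hinv g y hy, fun e => hy' (by
        have := MulAction.mem_orbit_of_mem_orbit g⁻¹ e
        rwa [inv_smul_smul] at this)⟩

/-- Arithmetic of Gleason's lemma. -/
theorem gleason_arith {n M e : ℕ} (hn : 0 < n) (he : 2 ≤ e) (hM : M ∣ n)
    (hle : 1 + (n + 1) * (e - 1) ≤ M * e) : M = n := by
  obtain ⟨k, rfl⟩ := hM
  rcases Nat.lt_trichotomy k 1 with hk | hk | hk
  · interval_cases k
    simp at hn
  · rw [hk, mul_one]
  · exfalso
    obtain ⟨d, rfl⟩ : ∃ d, e = d + 2 := ⟨e - 2, by omega⟩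
    rw [show d + 2 - 1 = d + 1 from by omega] at hle
    have h2 : M * 2 ≤ M * k := Nat.mul_le_mul_left _ hk
    nlinarith

variable {P L : Type*} [Membership P L] [ProjectivePlane P L] [Finite P] [Finite L]

theorem IsAxis.conj {g : Coll P L} {a : L} (h : IsAxis g a) (k : Coll P L) :
    IsAxis (k * g * k⁻¹) (k • a) := fun p hp => by
  rw [mul_smul, mul_smul, h _ ((mem_smul_iff k p a).1 hp), smul_inv_smul]

theorem IsCentre.conj {g : Coll P L} {c : P} (h : IsCentre g c) (k : Coll P L) :
    IsCentre (k * g * k⁻¹) (k • c) := fun l hl => by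
  rw [mul_smul, mul_smul, h _ ((smul_mem_iff k c l).1 hl), smul_inv_smul]

/-- The collineations with axis `a`. -/
def axisGroup (a : L) : Subgroup (Coll P L) where
  carrier := {g | IsAxis g a}
  one_mem' := fun _ _ => one_smul _ _
  mul_mem' {g h} hg hh := fun p hp => by rw [mul_smul, hh p hp, hg p hp]
  inv_mem' {g} hg := fun p hp => by rw [inv_smul_eq_iff, hg p hp]

/-- The collineations with centre `c`. -/
def centreGroup (c : P) : Subgroup (Coll P L) where
  carrier := {g | IsCentre g c}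
  one_mem' := fun _ _ => one_smul _ _
  mul_mem' {g h} hg hh := fun p hp => by rw [mul_smul, hh p hp, hg p hp]
  inv_mem' {g} hg := fun p hp => by rw [inv_smul_eq_iff, hg p hp]

theorem mem_axisGroup {g : Coll P L} {a : L} : g ∈ axisGroup a ↔ IsAxis g a := Iff.rfl

theorem mem_centreGroup {g : Coll P L} {c : P} : g ∈ centreGroup c ↔ IsCentre g c := Iff.rfl

/-- A nontrivial collineation with axis `a` fixes no point off `a` iff its centre lies on `a`. -/
theorem centre_mem_of_free {g : Coll P L} {a : L} {c : P} (hc : IsCentre g c)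
    (hfree : ∀ x : P, x ∉ a → g • x ≠ x) : c ∈ a := by
  by_contra h
  exact hfree c h hc.fix

theorem free_of_elation {g : Coll P L} {a : L} {c : P} (ha : IsAxis g a) (hc : IsCentre g c)
    (hca : c ∈ a) (hg : g ≠ 1) (x : P) (hx : x ∉ a) : g • x ≠ x := fun e =>
  hg (eq_one_of_fixed ha hc hx (fun h => hx (h ▸ hca)) e)

/-- The elations with axis `a`. -/
def elA (a : L) : Subgroup (Coll P L) where
  carrier := {g | IsAxis g a ∧ ∀ x : P, x ∉ a → g • x = x → g = 1}
  one_mem' := ⟨fun _ _ => one_smul _ _, fun _ _ _ => rfl⟩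
  inv_mem' {g} hg := ⟨(axisGroup a).inv_mem hg.1, fun x hx e => by
    rw [inv_smul_eq_iff] at e
    rw [hg.2 x hx e.symm, inv_one]⟩
  mul_mem' {g h} hg hh := ⟨(axisGroup a).mul_mem hg.1 hh.1, fun x hx e => by
    by_cases hhx : h • x = x
    · have h1 := hh.2 x hx hhx
      rw [h1, mul_one] at e ⊢
      exact hg.2 x hx e
    rw [mul_smul] at e
    obtain ⟨c, hc⟩ := IsAxis.exists_centre hh.1
    obtain ⟨c', hc'⟩ := IsAxis.exists_centre hg.1
    have hh1 : h ≠ 1 := fun e' => hhx (by rw [e', one_smul])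
    have hg1 : g ≠ 1 := fun e' => hhx (by rwa [e', one_smul] at e)
    have hca : c ∈ a := centre_mem_of_free hc fun z hz e' => hh1 (hh.2 z hz e')
    have hc'a : c' ∈ a := centre_mem_of_free hc' fun z hz e' => hg1 (hg.2 z hz e')
    have hxc : x ≠ c := fun e' => hx (e' ▸ hca)
    have hhxa : h • x ∉ a := fun e' => hx (by
      rwa [smul_mem_iff, show h⁻¹ • a = a from by rw [inv_smul_eq_iff, IsAxis.fix hh.1]] at e')
    have hxc' : h • x ≠ c' := fun e' => hhxa (e' ▸ hc'a)
    have l1 : h • x ∈ (join x c : L) := by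
      have h0 := (smul_mem_smul h _ _).2 (left_mem_join (L := L) x c)
      rwa [hc _ (right_mem_join x c)] at h0
    have l2 : x ∈ (join (h • x) c' : L) := by
      have h0 := (smul_mem_smul g _ _).2 (left_mem_join (L := L) (h • x) c')
      rwa [hc' _ (right_mem_join (h • x) c'), e] at h0
    have hja : (join x c : L) ≠ a := fun e' => hx (e' ▸ left_mem_join x c)
    have hjj : (join x c : L) = join (h • x) c' :=
      line_eq hhx l1 (left_mem_join x c) (left_mem_join _ _) l2
    have hcc : c' = c := point_eq hja (hjj ▸ right_mem_join _ _) hc'a (right_mem_join x c) hca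
    subst hcc
    exact eq_one_of_fixed ((axisGroup a).mul_mem hg.1 hh.1) ((centreGroup c').mul_mem hc' hc) hx
      hxc (by rw [mul_smul, e])⟩

theorem mem_elA {g : Coll P L} {a : L} :
    g ∈ elA a ↔ IsAxis g a ∧ ∀ x : P, x ∉ a → g • x = x → g = 1 := Iff.rfl

theorem mem_elA_of_elation {g : Coll P L} {a : L} {c : P} (ha : IsAxis g a) (hc : IsCentre g c)
    (hca : c ∈ a) : g ∈ elA a :=
  ⟨ha, fun _ hx e => eq_one_of_fixed ha hc hx (fun h => hx (h ▸ hca)) e⟩

theorem exists_centre_of_mem_elA {g : Coll P L} {a : L} (hg : g ∈ elA a) :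
    ∃ c : P, c ∈ a ∧ IsCentre g c := by
  by_cases h1 : g = 1
  · obtain ⟨p, hp, -⟩ := exists_point_on_ne a (meet (P := P) a a)
    exact ⟨p, hp, fun l _ => by rw [h1, one_smul]⟩
  obtain ⟨c, hc⟩ := IsAxis.exists_centre hg.1
  exact ⟨c, centre_mem_of_free hc fun z hz e => h1 (hg.2 z hz e), hc⟩

theorem centre_of_fixed_line {g : Coll P L} {a : L} (hg : g ∈ elA a) {l : L} (hl : g • l = l)
    (hla : l ≠ a) {X : P} (hXl : X ∈ l) (hXa : X ∈ a) : IsCentre g X := by
  by_cases h1 : g = 1
  · intro m _; rw [h1, one_smul]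
  obtain ⟨c, hca, hc⟩ := exists_centre_of_mem_elA hg
  rcases eq_axis_of_fixed hg.1 hc h1 hl with hcl | hcl
  · rwa [← point_eq hla hcl hca hXl hXa]
  · exact absurd hcl hla

theorem ncard_points_off (a : L) : {x : P | x ∉ a}.ncard = order P L ^ 2 := by
  have h := Set.ncard_add_ncard_compl (pts (P := P) a)
  rw [ncard_pts, natCard_points (P := P) (L := L)] at h
  have e : (pts (P := P) a)ᶜ = {x : P | x ∉ a} := rfl
  rw [e] at h
  omega

theorem ncard_pts_ne {a : L} {X : P} (hX : X ∈ a) :
    {x : P | x ∈ a ∧ x ≠ X}.ncard = order P L := by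
  have h : {x : P | x ∈ a ∧ x ≠ X} = pts (P := P) a \ {X} := rfl
  rw [h, Set.ncard_sdiff_singleton_of_mem (show X ∈ pts (P := P) a from hX), ncard_pts]
  omega

theorem ncard_lns_ne {a : L} {X : P} (hX : X ∈ a) :
    {l : L | X ∈ l ∧ l ≠ a}.ncard = order P L := by
  have h : {l : L | X ∈ l ∧ l ≠ a} = lns (L := L) X \ {a} := rfl
  rw [h, Set.ncard_sdiff_singleton_of_mem (show a ∈ lns (L := L) X from hX), ncard_lns]
  omega

theorem card_dvd_sq {a : L} {H : Subgroup (Coll P L)} (hH : H ≤ elA a) :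
    Nat.card H ∣ order P L ^ 2 := by
  rw [← ncard_points_off (P := P) a, ← Subgroup.index_bot]
  refine index_dvd_ncard ⊥ _ (fun g x hx e => hx ?_) fun x hx => ?_
  · rwa [Subgroup.smul_def, smul_mem_iff, show (g : Coll P L)⁻¹ • a = a from by
      rw [inv_smul_eq_iff, IsAxis.fix (hH g.2).1]] at e
  · rw [eq_bot_iff]
    intro g hg
    rw [Subgroup.mem_bot]
    exact Subtype.ext ((hH g.2).2 x hx hg)

theorem index_centre_dvd {a : L} {H : Subgroup (Coll P L)} (hH : H ≤ elA a) {X : P} (hX : X ∈ a) :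
    ((centreGroup X).subgroupOf H).index ∣ order P L := by
  rw [← ncard_lns_ne (L := L) hX]
  refine index_dvd_ncard _ _ (fun g l hl => ⟨?_, fun e => hl.2 ?_⟩) fun l hl => ?_
  · rw [Subgroup.smul_def, mem_smul_iff, show (g : Coll P L)⁻¹ • X = X from by
      rw [inv_smul_eq_iff, (hH g.2).1 X hX]]
    exact hl.1
  · rw [Subgroup.smul_def] at e
    rw [← inv_smul_smul (g : Coll P L) l, e, inv_smul_eq_iff, IsAxis.fix (hH g.2).1]
  · ext g
    rw [Subgroup.mem_subgroupOf, MulAction.mem_stabilizer_iff, Subgroup.smul_def, mem_centreGroup]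
    exact ⟨fun h => centre_of_fixed_line (hH g.2) h hl.2 hl.1 hX, fun h => h l hl.1⟩

/-- Number of elements of `H` with centre `X`. -/
noncomputable def eX (H : Subgroup (Coll P L)) (X : P) : ℕ :=
  Nat.card ↥(H ⊓ centreGroup X)

theorem eX_pos (H : Subgroup (Coll P L)) (X : P) : 0 < eX H X := Nat.card_pos

theorem index_mul_eX (H : Subgroup (Coll P L)) (X : P) :
    ((centreGroup X).subgroupOf H).index * eX H X = Nat.card H := by
  have e : (centreGroup X).subgroupOf H = (H ⊓ centreGroup X).subgroupOf H :=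
    (Subgroup.inf_subgroupOf_left (centreGroup X) H).symm
  rw [e, eX, ← Nat.card_congr (Subgroup.subgroupOfEquivOfLe
    (inf_le_left : H ⊓ centreGroup X ≤ H)).toEquiv]
  exact Subgroup.index_mul_card _

open Classical in
/-- Counting the elations with a common axis by their centres. -/
theorem card_eq_sum [Fintype P] {a : L} {H : Subgroup (Coll P L)} (hH : H ≤ elA a) :
    Nat.card H = 1 + ∑ X ∈ Finset.univ.filter (fun X : P => X ∈ a), (eX H X - 1) := by
  have := Fintype.ofFinite H
  have h1 : ∀ X : P, eX H X - 1 =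
      (Finset.univ.filter fun g : H => (g : Coll P L) ≠ 1 ∧ IsCentre (g : Coll P L) X).card := by
    intro X
    have h2 : (Finset.univ.filter fun g : H => IsCentre (g : Coll P L) X).card = eX H X := by
      rw [eX, ← Fintype.card_subtype, ← Nat.card_eq_fintype_card]
      exact Nat.card_congr
        { toFun := fun g => ⟨g.1.1, g.1.2, g.2⟩
          invFun := fun g => ⟨⟨g.1, g.2.1⟩, g.2.2⟩
          left_inv := fun _ => rfl
          right_inv := fun _ => rfl }
    have h3 : (Finset.univ.filter fun g : H => (g : Coll P L) ≠ 1 ∧ IsCentre (g : Coll P L) X) =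
        (Finset.univ.filter fun g : H => IsCentre (g : Coll P L) X).erase 1 := by
      ext g
      simp only [Finset.mem_filter, Finset.mem_univ, true_and, Finset.mem_erase, ne_eq,
        OneMemClass.coe_eq_one]
    rw [h3, Finset.card_erase_of_mem (Finset.mem_filter.2 ⟨Finset.mem_univ _, fun l _ => one_smul _ _⟩), h2]
  rw [Finset.sum_congr rfl fun X _ => h1 X, ← Finset.card_biUnion]
  · rw [show ((Finset.univ.filter fun X : P => X ∈ a).biUnion fun X =>
        Finset.univ.filter fun g : H => (g : Coll P L) ≠ 1 ∧ IsCentre (g : Coll P L) X) =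
        Finset.univ.erase 1 from ?_, Finset.card_erase_of_mem (Finset.mem_univ _),
      Finset.card_univ, ← Nat.card_eq_fintype_card]
    · have : 0 < Nat.card H := Nat.card_pos
      omega
    · ext g
      simp only [Finset.mem_biUnion, Finset.mem_filter, Finset.mem_univ, true_and,
        Finset.mem_erase, and_true, ne_eq, OneMemClass.coe_eq_one]
      exact ⟨fun ⟨_, _, h, _⟩ => h, fun h => by
        obtain ⟨c, hca, hc⟩ := exists_centre_of_mem_elA (hH g.2)
        exact ⟨c, hca, h, hc⟩⟩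
  · intro X _ Y _ hXY
    rw [Function.onFun, Finset.disjoint_left]
    intro g hg hg'
    simp only [Finset.mem_filter, Finset.mem_univ, true_and] at hg hg'
    exact hXY (centre_unique hg.2 hg'.2 hg.1)

theorem elation_comm {a : L} {g h : Coll P L} (hg : g ∈ elA a) (hh : h ∈ elA a) {X Y : P}
    (hgX : IsCentre g X) (hhY : IsCentre h Y) (hXY : X ≠ Y) (hX : X ∈ a) (hY : Y ∈ a) :
    g * h = h * g := by
  by_contra hne
  refine hne (commutatorElement_eq_one_iff_mul_comm.1 ?_)
  by_contra h1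
  have hX' : IsCentre ⁅g, h⁆ X := by
    rw [commutatorElement_def, mul_assoc g, mul_assoc g]
    refine (centreGroup X).mul_mem hgX ?_
    have h2 := IsCentre.conj ((centreGroup X).inv_mem hgX) h
    rwa [hh.1 X hX] at h2
  have hY' : IsCentre ⁅g, h⁆ Y := by
    rw [commutatorElement_def]
    refine (centreGroup Y).mul_mem ?_ ((centreGroup Y).inv_mem hhY)
    have h2 := IsCentre.conj hhY g
    rwa [hg.1 Y hY] at h2
  exact hXY (centre_unique hX' hY' h1)

variable {a : L} {H : Subgroup (Coll P L)}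

/-- `H` contains elations with different centres. -/
def TwoCentres (a : L) (H : Subgroup (Coll P L)) : Prop :=
  ∃ g ∈ H, ∃ h ∈ H, ∃ X Y : P, g ≠ 1 ∧ h ≠ 1 ∧ IsCentre g X ∧ IsCentre h Y ∧ X ≠ Y ∧ X ∈ a ∧ Y ∈ a

theorem TwoCentres.comm (h2 : TwoCentres a H) (hH : H ≤ elA a) {g h : Coll P L} (hg : g ∈ H)
    (hh : h ∈ H) : g * h = h * g := by
  obtain ⟨Xg, hXga, hXg⟩ := exists_centre_of_mem_elA (hH hg)
  obtain ⟨Xh, hXha, hXh⟩ := exists_centre_of_mem_elA (hH hh)
  by_cases hne : Xg ≠ Xh
  · exact elation_comm (hH hg) (hH hh) hXg hXh hne hXga hXha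
  push Not at hne
  subst hne
  obtain ⟨k, hk, hk1, Z, hZa, hZ, hZX⟩ :
      ∃ k ∈ H, k ≠ 1 ∧ ∃ Z : P, Z ∈ a ∧ IsCentre k Z ∧ Z ≠ Xg := by
    obtain ⟨g', hg', h', hh', X, Y, h1, h2, hX, hY, hXY, hXa, hYa⟩ := h2
    by_cases hXX : X = Xg
    · exact ⟨h', hh', h2, Y, hYa, hY, fun e => hXY (hXX.trans e.symm)⟩
    · exact ⟨g', hg', h1, X, hXa, hX, hXX⟩
  have h3 : h * k = k * h := elation_comm (hH hh) (hH hk) hXh hZ hZX.symm hXha hZa
  obtain ⟨W, hWa, hW⟩ := exists_centre_of_mem_elA (hH (H.mul_mem hk hg))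
  have hWX : W ≠ Xg := by
    rintro rfl
    refine hZX (centre_unique hZ ?_ hk1)
    have := (centreGroup W).mul_mem hW ((centreGroup W).inv_mem hXg)
    rwa [mul_inv_cancel_right, mem_centreGroup] at this
  have h4 : h * (k * g) = k * g * h :=
    elation_comm (hH hh) (hH (H.mul_mem hk hg)) hXh hW hWX.symm hXha hWa
  have h5 : k * (h * g) = k * (g * h) := by rw [← mul_assoc, ← h3, mul_assoc, h4, mul_assoc]
  exact (mul_left_cancel h5).symm

theorem TwoCentres.isPGroup (h2 : TwoCentres a H) (hH : H ≤ elA a) :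
    ∃ q, q.Prime ∧ IsPGroup q H := by
  obtain ⟨g, hg, h, hh, X, Y, hg1, hh1, hX, hY, hXY, hXa, hYa⟩ := h2
  have h2 : TwoCentres a H := ⟨g, hg, h, hh, X, Y, hg1, hh1, hX, hY, hXY, hXa, hYa⟩
  have key : ∀ u ∈ H, ∀ v ∈ H, u ≠ 1 → v ≠ 1 → ∀ U V : P, IsCentre u U → IsCentre v V → U ≠ V →
      orderOf u ∣ orderOf v := by
    intro u hu v hv hu1 hv1 U V hU hV hUV
    rw [orderOf_dvd_iff_pow_eq_one]
    by_contra hne
    have h1 : (u * v) ^ orderOf v = u ^ orderOf v := by
      rw [Commute.mul_pow (h2.comm hH hu hv), pow_orderOf_eq_one, mul_one]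
    obtain ⟨W, -, hW⟩ := exists_centre_of_mem_elA (hH (H.mul_mem hu hv))
    have hWU : W = U := centre_unique ((centreGroup W).pow_mem hW _)
      (h1 ▸ (centreGroup U).pow_mem hU _) (h1 ▸ hne)
    refine hUV (centre_unique ?_ hV hv1)
    have := (centreGroup U).mul_mem ((centreGroup U).inv_mem hU) (hWU ▸ hW)
    rwa [inv_mul_cancel_left] at this
  have hord : ∀ u ∈ H, u ≠ 1 → orderOf u = orderOf g := by
    intro u hu hu1
    obtain ⟨U, -, hU⟩ := exists_centre_of_mem_elA (hH hu)
    by_cases hUX : U = X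
    · subst hUX
      exact (Nat.dvd_antisymm (key u hu h hh hu1 hh1 U Y hU hY hXY)
        (key h hh u hu hh1 hu1 Y U hY hU hXY.symm)).trans
        (Nat.dvd_antisymm (key h hh g hg hh1 hg1 Y U hY hX hXY.symm)
          (key g hg h hh hg1 hh1 U Y hX hY hXY))
    · exact Nat.dvd_antisymm (key u hu g hg hu1 hg1 U X hU hX hUX)
        (key g hg u hu hg1 hu1 X U hX hU (Ne.symm hUX))
  have hord1 : orderOf g ≠ 1 := fun e => hg1 (orderOf_eq_one_iff.1 e)
  obtain ⟨q, hq, hqd⟩ := Nat.exists_prime_and_dvd hord1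
  have hgq : orderOf g = q := by
    set t := orderOf g / q with ht
    have hgpos : 0 < orderOf g := orderOf_pos g
    have ht0 : t ≠ 0 := (Nat.div_pos (Nat.le_of_dvd hgpos hqd) hq.pos).ne'
    have htdvd : t ∣ orderOf g := Nat.div_dvd_of_dvd hqd
    have hv : orderOf (g ^ t) = q := by
      rw [orderOf_pow_of_dvd ht0 htdvd, ht, Nat.div_div_self hqd hgpos.ne']
    have hne : g ^ t ≠ 1 := fun e => hq.one_lt.ne' (by rw [← hv, e, orderOf_one])
    exact (hord _ (H.pow_mem hg t) hne).symm.trans hv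
  refine ⟨q, hq, fun u => ?_⟩
  by_cases hu : (u : Coll P L) = 1
  · exact ⟨0, Subtype.ext (by simp [hu])⟩
  · refine ⟨1, Subtype.ext ?_⟩
    rw [pow_one, Subgroup.coe_pow, ← hgq, ← hord u u.2 hu, pow_orderOf_eq_one]
    rfl

end Cfsg.Agent.H27.OW
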