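import Mathlib
import Cfsg.Agent.H27.OW.Groups

/-!
# Planes with many involutory homologies have prime power order
-/

set_option autoImplicit false
set_option linter.unusedSectionVars false

namespace Cfsg.Agent.H27.OW

open Configuration Configuration.ProjectivePlane

variable {P L : Type*} [Membership P L]

/-- `c` and `a` are centre and axis of an involution in `K`. -/
def Hom (K : Subgroup (Coll P L)) (c : P) (a : L) : Prop :=
  ∃ σ ∈ K, σ ≠ 1 ∧ σ * σ = 1 ∧ IsAxis σ a ∧ IsCentre σ c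

variable [ProjectivePlane P L] [Finite P] [Finite L]

variable (P L) in
/-- The order is a prime power. -/
def PrimePowerOrder : Prop := ∃ q e, q.Prime ∧ order P L = q ^ e

/-- The hypotheses on the group. -/
structure HomData (K : Subgroup (Coll P L)) : Prop where
  odd : Odd (order P L)
  inv : ∀ σ ∈ K, σ ≠ 1 → σ * σ = 1 → ∃ (c : P) (a : L), IsAxis σ a ∧ IsCentre σ c
  pair : ∀ p q : P, p ≠ q → ∃ σ ∈ K, σ ≠ 1 ∧ σ * σ = 1 ∧ σ • p = p ∧ σ • q = q
  linePair : ∀ l m : L, l ≠ m → ∃ σ ∈ K, σ ≠ 1 ∧ σ * σ = 1 ∧ σ • l = l ∧ σ • m = m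

variable {K : Subgroup (Coll P L)}

/-- The dual group. -/
abbrev dualGroup (K : Subgroup (Coll P L)) : Subgroup (Coll (Dual L) (Dual P)) :=
  K.map (dualColl P L).toMonoidHom

theorem Hom.dual {c : P} {a : L} (h : Hom K c a) :
    Hom (P := Dual L) (L := Dual P) (dualGroup K) a c := by
  obtain ⟨σ, hσ, h1, h2, ha, hc⟩ := h
  exact ⟨dualColl P L σ, ⟨σ, hσ, rfl⟩, fun e => h1 ((dualColl P L).injective (by rw [e, map_one])),
    by rw [← map_mul, h2, map_one], hc, ha⟩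

theorem Hom.of_dual {c : P} {a : L} (h : Hom (P := Dual L) (L := Dual P) (dualGroup K) a c) :
    Hom K c a := by
  obtain ⟨_, ⟨σ, hσ, rfl⟩, h1, h2, ha, hc⟩ := h
  refine ⟨σ, hσ, fun e => h1 (by rw [e, map_one]), (dualColl P L).injective ?_, hc, ha⟩
  rw [map_mul, map_one]; exact h2

theorem HomData.dual (hK : HomData K) :
    HomData (P := Dual L) (L := Dual P) (dualGroup K) := by
  refine ⟨?_, ?_, ?_, ?_⟩
  · rw [Configuration.ProjectivePlane.Dual.order]; exact hK.odd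
  · rintro _ ⟨σ, hσ, rfl⟩ h1 h2
    obtain ⟨c, a, ha, hc⟩ := hK.inv σ hσ (fun e => h1 (by rw [e, map_one]))
      ((dualColl P L).injective (by rw [map_mul, map_one]; exact h2))
    exact ⟨a, c, hc, ha⟩
  · intro p q hpq
    obtain ⟨σ, hσ, h1, h2, h3, h4⟩ := hK.linePair p q hpq
    exact ⟨dualColl P L σ, ⟨σ, hσ, rfl⟩,
      fun e => h1 ((dualColl P L).injective (by rw [e, map_one])),
      by rw [← map_mul, h2, map_one], h3, h4⟩
  · intro p q hpq
    obtain ⟨σ, hσ, h1, h2, h3, h4⟩ := hK.pair p q hpq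
    exact ⟨dualColl P L σ, ⟨σ, hσ, rfl⟩,
      fun e => h1 ((dualColl P L).injective (by rw [e, map_one])),
      by rw [← map_mul, h2, map_one], h3, h4⟩

theorem not_mem_axis (hn : Odd (order P L)) {σ : Coll P L} (h1 : σ ≠ 1) (h2 : σ * σ = 1) {a : L}
    {c : P} (ha : IsAxis σ a) (hc : IsCentre σ c) : c ∉ a := by
  intro hca
  have hle : Subgroup.zpowers σ ≤ elA a := Subgroup.zpowers_le.2 (mem_elA_of_elation ha hc hca)
  have h3 := card_dvd_sq hle
  have : Fact (Nat.Prime 2) := ⟨Nat.prime_two⟩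
  rw [Nat.card_zpowers, orderOf_eq_prime (by rw [sq, h2]) h1] at h3
  exact hn.not_two_dvd_nat (Nat.prime_two.dvd_of_dvd_pow h3)

theorem Hom.not_mem (hK : HomData K) {c : P} {a : L} (h : Hom K c a) : c ∉ a := by
  obtain ⟨σ, -, h1, h2, ha, hc⟩ := h
  exact not_mem_axis hK.odd h1 h2 ha hc

theorem Hom.conj {c : P} {a : L} (h : Hom K c a) {k : Coll P L} (hk : k ∈ K) :
    Hom K (k • c) (k • a) := by
  obtain ⟨σ, hσ, h1, h2, ha, hc⟩ := h
  refine ⟨k * σ * k⁻¹, K.mul_mem (K.mul_mem hk hσ) (K.inv_mem hk), fun e => h1 ?_, ?_,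
    ha.conj k, hc.conj k⟩
  · rwa [mul_inv_eq_one, mul_eq_left] at e
  · rw [show k * σ * k⁻¹ * (k * σ * k⁻¹) = k * (σ * σ) * k⁻¹ by group, h2, mul_one, mul_inv_cancel]

/-- The elations with centre `c`. -/
def elC (c : P) : Subgroup (Coll P L) :=
  (elA (P := Dual L) (L := Dual P) c).comap (dualColl P L).toMonoidHom

theorem mem_elC_of_elation {g : Coll P L} {a : L} {c : P} (ha : IsAxis g a) (hc : IsCentre g c)
    (hca : c ∈ a) : g ∈ elC c :=
  mem_elA_of_elation (P := Dual L) (L := Dual P) (g := dualColl P L g) (a := c) (c := a) hc ha hca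

theorem exists_axis_of_mem_elC {g : Coll P L} {c : P} (hg : g ∈ elC c) :
    ∃ a : L, c ∈ a ∧ IsAxis g a :=
  exists_centre_of_mem_elA (P := Dual L) (L := Dual P) hg

theorem centre_of_mem_elC {g : Coll P L} {c : P} (hg : g ∈ elC c) : IsCentre g c :=
  ((mem_elA (P := Dual L) (L := Dual P)).1 hg).1

theorem isPGroup_of_two_axes {c : P} {H : Subgroup (Coll P L)} (hH : H ≤ elC c) {g h : Coll P L}
    (hg : g ∈ H) (hh : h ∈ H) (hg1 : g ≠ 1) (hh1 : h ≠ 1) {A B : L} (hA : IsAxis g A)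
    (hB : IsAxis h B) (hAB : A ≠ B) : ∃ q, q.Prime ∧ IsPGroup q H := by
  obtain ⟨A', hA', hgA'⟩ := exists_axis_of_mem_elC (hH hg)
  obtain rfl := axis_unique hA hgA' hg1
  obtain ⟨B', hB', hhB'⟩ := exists_axis_of_mem_elC (hH hh)
  obtain rfl := axis_unique hB hhB' hh1
  obtain ⟨q, hq, hqp⟩ := TwoCentres.isPGroup (P := Dual L) (L := Dual P) (a := c)
    (H := H.map (dualColl P L).toMonoidHom)
    ⟨_, ⟨g, hg, rfl⟩, _, ⟨h, hh, rfl⟩, A, B,
      fun e => hg1 ((dualColl P L).injective (by rw [map_one]; exact e)),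
      fun e => hh1 ((dualColl P L).injective (by rw [map_one]; exact e)), hA, hB, hAB, hA', hB'⟩
    (Subgroup.map_le_iff_le_comap.2 hH)
  exact ⟨q, hq, hqp.of_equiv (Subgroup.equivMapOfInjective H _ (dualColl P L).injective).symm⟩

/-- Two axes at one centre give an elation and conjugate the axes. -/
theorem two_axes (hK : HomData K) {c : P} {a a' : L} (h : Hom K c a) (h' : Hom K c a')
    (hne : a ≠ a') :
    ∃ b : L, c ∈ b ∧ (meet a a' : P) ∈ b ∧ (∃ g ∈ K, g ≠ 1 ∧ IsAxis g b ∧ IsCentre g c) ∧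
      ∃ g ∈ K ⊓ elC c, g • a = a' := by
  obtain ⟨σ, hσ, h1, h2, ha, hc⟩ := h
  obtain ⟨σ', hσ', h1', h2', ha', hc'⟩ := h'
  set d := σ * σ' with hd
  have hσi : σ⁻¹ = σ := inv_eq_of_mul_eq_one_right h2
  have hσi' : σ'⁻¹ = σ' := inv_eq_of_mul_eq_one_right h2'
  have hd1 : d ≠ 1 := by
    intro e
    have e2 : σ' = σ := (inv_eq_of_mul_eq_one_right e).symm.trans hσi
    rw [e2] at ha'
    exact hne (axis_unique ha ha' h1)
  have hdc : IsCentre d c := (centreGroup c).mul_mem hc hc'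
  have hdK : d ∈ K := K.mul_mem hσ hσ'
  obtain ⟨b, hb⟩ := hdc.exists_axis
  have hcb : c ∈ b := by
    by_contra hcb
    have hfix : ∀ τ : Coll P L, IsCentre τ c → τ * d * τ⁻¹ = d⁻¹ → τ • b = b := by
      intro τ _ he
      have h4 := hb.conj τ
      rw [he] at h4
      exact axis_unique h4 ((axisGroup b).inv_mem hb) (inv_ne_one.2 hd1)
    have e1 : σ * d * σ⁻¹ = d⁻¹ := by
      rw [hd, mul_inv_rev, hσi, hσi', ← mul_assoc, h2, one_mul]
    have e2 : σ' * d * σ'⁻¹ = d⁻¹ := by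
      rw [hd, mul_inv_rev, hσi, hσi', mul_assoc, mul_assoc, h2', mul_one]
    rcases eq_axis_of_fixed ha hc h1 (hfix σ hc e1) with h5 | h5
    · exact hcb h5
    rcases eq_axis_of_fixed ha' hc' h1' (hfix σ' hc' e2) with h6 | h6
    · exact hcb h6
    exact hne (h5.symm.trans h6)
  have hI : (meet a a' : P) ∈ b := by
    have h4 : d • (meet a a' : P) = meet a a' := by
      rw [hd, mul_smul, ha' _ (meet_mem_right a a'), ha _ (meet_mem_left a a')]
    rcases eq_centre_of_fixed hb hdc hd1 h4 with h5 | h5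
    · exact h5
    · exact absurd (h5 ▸ meet_mem_left a a') (not_mem_axis hK.odd h1 h2 ha hc)
  refine ⟨b, hcb, hI, ⟨d, hdK, hd1, hb, hdc⟩, ?_⟩
  have hoddd : Odd (orderOf d) := by
    have h4 := card_dvd_sq (Subgroup.zpowers_le.2 (mem_elA_of_elation hb hdc hcb))
    rw [Nat.card_zpowers] at h4
    exact hK.odd.pow.of_dvd_nat h4
  obtain ⟨j, hj⟩ := hoddd
  refine ⟨d ^ j, ⟨K.pow_mem hdK j, (elC c).pow_mem (mem_elC_of_elation hb hdc hcb) j⟩, ?_⟩
  have hc1 : σ * d = d⁻¹ * σ := by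
    rw [hd, mul_inv_rev, hσi, hσi', ← mul_assoc, h2, one_mul, mul_assoc, h2, mul_one]
  have hcomm : ∀ k : ℕ, σ * d ^ k = d⁻¹ ^ k * σ := fun k =>
    (SemiconjBy.pow_right (show SemiconjBy σ d d⁻¹ from hc1) k)
  have hkey : d ^ j * σ * (d ^ j)⁻¹ = σ' := by
    have h5 : d ^ j * σ = σ * (d ^ j)⁻¹ := by
      have h6 := hcomm j
      rw [inv_pow] at h6
      have h7 : d ^ j * (σ * d ^ j) = σ := by rw [h6, ← mul_assoc, mul_inv_cancel, one_mul]
      calc d ^ j * σ = d ^ j * (σ * d ^ j) * (d ^ j)⁻¹ := by group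
        _ = σ * (d ^ j)⁻¹ := by rw [h7]
    have h6 : (d ^ j)⁻¹ * (d ^ j)⁻¹ = d := by
      rw [← mul_inv_rev, ← pow_add, inv_eq_iff_mul_eq_one, ← pow_succ,
        show j + j + 1 = orderOf d by omega, pow_orderOf_eq_one]
    rw [h5, mul_assoc, h6, hd, ← mul_assoc, h2, one_mul]
  have h7 := ha.conj (d ^ j)
  rw [hkey] at h7
  exact axis_unique h7 ha' h1'

open Classical in
/-- The points cut on `l` by the axes with centre `Y`. -/
noncomputable def cut (K : Subgroup (Coll P L)) [Fintype P] (l : L) (Y : P) : Finset P :=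
  Finset.univ.filter fun D => D ∈ l ∧ D ≠ Y ∧ ∃ a : L, Hom K Y a ∧ D ∈ a

theorem mem_cut [Fintype P] {l : L} {Y D : P} :
    D ∈ cut K l Y ↔ D ∈ l ∧ D ≠ Y ∧ ∃ a : L, Hom K Y a ∧ D ∈ a := by
  simp [cut]

theorem ne_of_hom {l : L} (hl : ∀ c, ¬ Hom K c l) {Y : P} {a : L} (h : Hom K Y a) : a ≠ l :=
  fun e => hl Y (e ▸ h)

theorem smul_line_of_centre {g : Coll P L} {Y : P} (hg : IsCentre g Y) {l : L} (hY : Y ∈ l) :
    g • l = l := hg l hY

open Classical in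
theorem coverage [Fintype P] (hK : HomData K) {l : L} (hl : ∀ c, ¬ Hom K c l) :
    (order P L + 1) * order P L ≤
      2 * ∑ Y ∈ Finset.univ.filter (fun Y : P => Y ∈ l), (cut K l Y).card := by
  set S := Finset.univ.filter fun Y : P => Y ∈ l with hS
  have hcard : S.card = order P L + 1 := by
    rw [← ncard_pts (P := P) l, pts, Set.ncard_eq_toFinset_card']
    congr 1; ext; simp [hS]
  set A : Finset (P × P) := (S ×ˢ S).filter fun z => z.2 ∈ cut K l z.1 with hA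
  have hAcard : A.card = ∑ Y ∈ S, (cut K l Y).card := by
    rw [hA, Finset.card_filter, Finset.sum_product]
    refine Finset.sum_congr rfl fun Y _ => ?_
    rw [← Finset.card_filter]
    congr 1
    ext D
    simp only [Finset.mem_filter, hS, Finset.mem_univ, true_and, and_iff_right_iff_imp]
    exact fun h => (mem_cut.1 h).1
  have hsub : S.offDiag ⊆ A ∪ A.image Prod.swap := by
    rintro ⟨p, q⟩ hpq
    rw [Finset.mem_offDiag] at hpq
    obtain ⟨hp, hq, hne⟩ := hpq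
    have hp' : p ∈ l := (Finset.mem_filter.1 hp).2
    have hq' : q ∈ l := (Finset.mem_filter.1 hq).2
    obtain ⟨σ, hσ, h1, h2, h3, h4⟩ := hK.pair p q hne
    obtain ⟨c, a, ha, hc⟩ := hK.inv σ hσ h1 h2
    have hH : Hom K c a := ⟨σ, hσ, h1, h2, ha, hc⟩
    rw [Finset.mem_union]
    rcases eq_centre_of_fixed ha hc h1 h3 with h5 | h5
    · rcases eq_centre_of_fixed ha hc h1 h4 with h6 | h6
      · exact absurd (line_eq hne h5 h6 hp' hq') (ne_of_hom hl hH)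
      · right
        rw [Finset.mem_image]
        exact ⟨(q, p), Finset.mem_filter.2 ⟨Finset.mk_mem_product hq hp,
          mem_cut.2 ⟨hp', hne, a, h6 ▸ hH, h5⟩⟩, rfl⟩
    · rcases eq_centre_of_fixed ha hc h1 h4 with h6 | h6
      · left
        exact Finset.mem_filter.2 ⟨Finset.mk_mem_product hp hq,
          mem_cut.2 ⟨hq', hne.symm, a, h5 ▸ hH, h6⟩⟩
      · exact absurd (h5.trans h6.symm) hne
  have h1 := (Finset.card_le_card hsub).trans (Finset.card_union_le _ _)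
  have h2 := h1.trans (Nat.add_le_add_left Finset.card_image_le _)
  rw [Finset.offDiag_card, hcard, hAcard] at h2
  have e : (order P L + 1) * (order P L + 1) - (order P L + 1) =
      (order P L + 1) * order P L := by
    rw [Nat.mul_succ]; omega
  rw [e] at h2
  omega

/-- What is obtained from a centre on `l` with at least two axes. -/
theorem elation_of_cut [Fintype P] (hK : HomData K) {l : L} (hl : ∀ c, ¬ Hom K c l) {Y : P}
    (hY : Y ∈ l) (h2 : 2 ≤ (cut K l Y).card) :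
    (∃ a₁ a₂ : L, a₁ ≠ a₂ ∧ Hom K Y a₁ ∧ Hom K Y a₂) ∧
    (∃ b : L, Y ∈ b ∧ b ≠ l ∧ ∃ g ∈ K, g ≠ 1 ∧ IsAxis g b ∧ IsCentre g Y) ∧
    ∃ o : ℕ, (cut K l Y).card ≤ o ∧ o ∣ order P L ∧
      (∀ q, q.Prime → IsPGroup q ↥(K ⊓ elC Y) → ∃ e, o = q ^ e) ∧
      (o = order P L → ∀ D D' : P, D ∈ l → D ≠ Y → D' ∈ l → D' ≠ Y →
        ∃ g ∈ K ⊓ elC Y, g • D = D') := by
  obtain ⟨D₁, h₁, D₂, h₂, hD⟩ := Finset.one_lt_card.1 h2
  obtain ⟨h1l, h1Y, a₁, ha₁, h1a⟩ := mem_cut.1 h₁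
  obtain ⟨h2l, h2Y, a₂, ha₂, h2a⟩ := mem_cut.1 h₂
  have hne : a₁ ≠ a₂ := fun e => hD (point_eq (ne_of_hom hl ha₁) h1a h1l (e ▸ h2a) h2l)
  refine ⟨⟨a₁, a₂, hne, ha₁, ha₂⟩, ?_, ?_⟩
  · obtain ⟨b, hYb, hIb, hg, -⟩ := two_axes hK ha₁ ha₂ hne
    refine ⟨b, hYb, fun e => hD ?_, hg⟩
    have hIl : (meet a₁ a₂ : P) ∈ l := e ▸ hIb
    rw [point_eq (ne_of_hom hl ha₁) h1a h1l (meet_mem_left a₁ a₂) hIl,
      point_eq (ne_of_hom hl ha₂) h2a h2l (meet_mem_right a₁ a₂) hIl]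
  · set H : Subgroup (Coll P L) := K ⊓ elC Y with hH
    set M : Subgroup H := (axisGroup l).subgroupOf H with hM
    have hinv : ∀ (g : H) (x : P), x ∈ {x : P | x ∈ l ∧ x ≠ Y} → g • x ∈ {x : P | x ∈ l ∧ x ≠ Y} := by
      rintro g x ⟨hx, hxY⟩
      refine ⟨?_, fun e => hxY ?_⟩
      · rw [Subgroup.smul_def, ← (centre_of_mem_elC g.2.2) l hY]
        exact (smul_mem_smul _ _ _).2 hx
      · rw [Subgroup.smul_def] at e
        exact smul_left_cancel (g : Coll P L) (e.trans (centre_of_mem_elC g.2.2).fix.symm)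
    have hstab : ∀ x ∈ {x : P | x ∈ l ∧ x ≠ Y}, MulAction.stabilizer H x = M := by
      rintro x ⟨hx, hxY⟩
      ext g
      rw [MulAction.mem_stabilizer_iff, hM, Subgroup.mem_subgroupOf, mem_axisGroup,
        Subgroup.smul_def]
      refine ⟨fun e => ?_, fun e => e x hx⟩
      by_cases h1 : (g : Coll P L) = 1
      · intro p _; rw [h1, one_smul]
      obtain ⟨b, hYb, hb⟩ := exists_axis_of_mem_elC g.2.2
      rcases eq_centre_of_fixed hb (centre_of_mem_elC g.2.2) h1 e with h3 | h3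
      · rwa [line_eq hxY h3 hYb hx hY] at hb
      · exact absurd h3 hxY
    refine ⟨M.index, ?_, ?_, fun q hq hqH => ?_, ?_⟩
    · have horb : (MulAction.orbit H D₁).ncard = M.index := by
        rw [← Nat.card_coe_set_eq, ← hstab D₁ ⟨h1l, h1Y⟩,
          Nat.card_congr (MulAction.orbitEquivQuotientStabilizer H D₁)]
        rfl
      rw [← horb, ← Set.ncard_coe_finset]
      refine Set.ncard_le_ncard (fun D hD' => ?_)
      obtain ⟨hDl, hDY, a, ha, hDa⟩ := mem_cut.1 hD'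
      by_cases haa : a₁ = a
      · subst haa
        rw [point_eq (ne_of_hom hl ha₁) hDa hDl h1a h1l]
        exact MulAction.mem_orbit_self _
      · obtain ⟨-, -, -, -, g, hg, hga⟩ := two_axes hK ha₁ ha haa
        refine ⟨⟨g, hg⟩, ?_⟩
        refine point_eq (ne_of_hom hl ha) ?_ (hinv ⟨g, hg⟩ D₁ ⟨h1l, h1Y⟩).1 hDa hDl
        rw [← hga]
        exact (smul_mem_smul g _ _).2 h1a
    · rw [← ncard_pts_ne (L := L) hY]
      exact index_dvd_ncard M _ hinv hstab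
    · have := Fact.mk hq
      exact IsPGroup.index hqH M
    · intro ho D D' hD1 hDY hD2 hD'Y
      have horb : (MulAction.orbit H D).ncard = M.index := by
        rw [← Nat.card_coe_set_eq, ← hstab D ⟨hD1, hDY⟩,
          Nat.card_congr (MulAction.orbitEquivQuotientStabilizer H D)]
        rfl
      have hsub : MulAction.orbit H D ⊆ {x : P | x ∈ l ∧ x ≠ Y} := by
        rintro _ ⟨g, rfl⟩; exact hinv g D ⟨hD1, hDY⟩
      have heq := Set.eq_of_subset_of_ncard_le hsub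
        (by rw [horb, ho]; exact (ncard_pts_ne (L := L) hY).le)
      obtain ⟨g, hg⟩ : D' ∈ MulAction.orbit H D := heq ▸ ⟨hD2, hD'Y⟩
      exact ⟨g, g.2, hg⟩

/-- The structure forced on a line which is no axis when the order is not a prime power. -/
def NonAxis (K : Subgroup (Coll P L)) (l : L) (J : P) : Prop :=
  J ∉ l ∧ ∀ Y : P, Y ∈ l →
    (∃ g ∈ K, g ≠ 1 ∧ IsAxis g (join Y J) ∧ IsCentre g Y) ∧
    (∀ a, Hom K Y a → J ∈ a) ∧ ∃ a₁ a₂ : L, a₁ ≠ a₂ ∧ Hom K Y a₁ ∧ Hom K Y a₂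

theorem primePower_three (h : order P L = 3) : PrimePowerOrder P L :=
  ⟨3, 1, Nat.prime_three, h.trans (pow_one 3).symm⟩

open Classical in
theorem nonAxis_structure (hK : HomData K) (hn : order P L ≠ 3) {l : L}
    (hl : ∀ c, ¬ Hom K c l) : PrimePowerOrder P L ∨ ∃ J, NonAxis K l J := by
  have := Fintype.ofFinite P
  have hn2 := two_le_order (P := P) (L := L)
  have hodd := hK.odd
  set n := order P L with hndef
  have hn5 : 5 ≤ n := by rcases hodd with ⟨k, hk⟩; omega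
  refine or_iff_not_imp_left.2 fun hpp => ?_
  -- one centre with a large cut
  have hsingle : ∀ Y : P, Y ∈ l → n ≤ 2 * (cut K l Y).card + 1 →
      ∃ b : L, Y ∈ b ∧ b ≠ l ∧ (∃ g ∈ K, g ≠ 1 ∧ IsAxis g b ∧ IsCentre g Y) ∧
        (∀ g ∈ K ⊓ elC Y, IsAxis g b) ∧
        (∀ D D' : P, D ∈ l → D ≠ Y → D' ∈ l → D' ≠ Y → ∃ g ∈ K ⊓ elC Y, g • D = D') := by
    intro Y hY hc
    obtain ⟨-, ⟨b, hYb, hbl, g, hgK, hg1, hgb, hgY⟩, o, hco, hon, hoq, hotr⟩ :=
      elation_of_cut hK hl hY (by omega)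
    have ho : o = n := by
      obtain ⟨k, hk⟩ := hon
      rw [← hndef] at hk
      have hkodd : Odd k := (hk ▸ hodd).of_dvd_nat (dvd_mul_left k o)
      rcases hkodd with ⟨i, rfl⟩
      rcases Nat.eq_zero_or_pos i with rfl | hi
      · simpa using hk.symm
      · have h3 : o * 3 ≤ o * (2 * i + 1) := Nat.mul_le_mul_left o (by omega)
        omega
    refine ⟨b, hYb, hbl, ⟨g, hgK, hg1, hgb, hgY⟩, fun h hh => ?_, hotr ho⟩
    by_cases h1 : h = 1
    · intro p _; rw [h1, one_smul]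
    obtain ⟨b', -, hb'⟩ := exists_axis_of_mem_elC hh.2
    by_cases hbb : b' = b
    · rwa [← hbb]
    exfalso
    obtain ⟨q, hq, hqH⟩ := isPGroup_of_two_axes (inf_le_right : K ⊓ elC Y ≤ elC Y) hh
      (⟨hgK, mem_elC_of_elation hgb hgY hYb⟩ : g ∈ K ⊓ elC Y) h1 hg1 hb' hgb hbb
    obtain ⟨e, he⟩ := hoq q hq hqH
    exact hpp ⟨q, e, hq, ho.symm.trans he⟩
  set S := Finset.univ.filter fun Y : P => Y ∈ l with hS
  have hcard : S.card = n + 1 := by
    rw [hndef, ← ncard_pts (P := P) l, pts, Set.ncard_eq_toFinset_card']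
    congr 1; ext; simp [hS]
  have hcov : (n + 1) * n ≤ 2 * ∑ Y ∈ S, (cut K l Y).card := by convert coverage hK hl
  obtain ⟨Y₀, hY₀, hc₀⟩ : ∃ Y ∈ S, n ≤ 2 * (cut K l Y).card := by
    by_contra hcon
    push Not at hcon
    have hne : S.Nonempty := Finset.card_pos.1 (by omega)
    have h1 := Finset.sum_lt_sum_of_nonempty hne hcon
    rw [← Finset.mul_sum, Finset.sum_const, smul_eq_mul, hcard] at h1
    omega
  have hY₀l : Y₀ ∈ l := (Finset.mem_filter.1 hY₀).2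
  obtain ⟨b₀, hYb₀, hb₀l, ⟨g₀, hg₀K, hg₀1, hg₀b, hg₀Y⟩, hb₀ax, htr₀⟩ :=
    hsingle Y₀ hY₀l (by omega)
  obtain ⟨Y₁, hY₁l, hY₁0⟩ := exists_point_on_ne l Y₀
  -- the other cuts are equal
  have hconj : ∀ g ∈ K ⊓ elC Y₀, ∀ Y : P, Y ∈ l → (cut K l (g • Y)).card = (cut K l Y).card := by
    intro g hg Y hY
    have hgl : g • l = l := centre_of_mem_elC hg.2 l hY₀l
    symm
    refine Finset.card_bij (fun D _ => g • D) ?_ (fun _ _ _ _ e => smul_left_cancel g e) ?_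
    · intro D hD
      obtain ⟨hDl, hDY, a, ha, hDa⟩ := mem_cut.1 hD
      exact mem_cut.2 ⟨hgl ▸ (smul_mem_smul g D l).2 hDl, fun e => hDY (smul_left_cancel g e),
        g • a, ha.conj hg.1, (smul_mem_smul g D a).2 hDa⟩
    · intro D hD
      obtain ⟨hDl, hDY, a, ha, hDa⟩ := mem_cut.1 hD
      refine ⟨g⁻¹ • D, mem_cut.2 ⟨?_, fun e => hDY (by rw [← e, smul_inv_smul]), g⁻¹ • a, ?_, ?_⟩,
        smul_inv_smul g D⟩
      · rwa [← hgl, mem_smul_iff] at hDl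
      · have h5 := ha.conj (K.inv_mem hg.1)
        rwa [inv_smul_smul] at h5
      · exact (smul_mem_smul g⁻¹ D a).2 hDa
  set k := (cut K l Y₁).card with hk
  have hconst : ∀ Y : P, Y ∈ l → Y ≠ Y₀ → (cut K l Y).card = k := by
    intro Y hY hY0
    obtain ⟨g, hg, rfl⟩ := htr₀ Y₁ Y hY₁l hY₁0 hY hY0
    exact hconj g hg Y₁ hY₁l
  have hk2 : n ≤ 2 * k + 1 := by
    have h0 : (cut K l Y₀).card ≤ n := by
      rw [hndef, ← ncard_pts_ne (L := L) hY₀l, ← Set.ncard_coe_finset]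
      exact Set.ncard_le_ncard fun D hD => ⟨(mem_cut.1 hD).1, (mem_cut.1 hD).2.1⟩
    rw [← Finset.add_sum_erase _ _ hY₀, Finset.sum_congr rfl (fun Y hY =>
        hconst Y (Finset.mem_filter.1 (Finset.mem_of_mem_erase hY)).2 (Finset.ne_of_mem_erase hY)),
      Finset.sum_const, Finset.card_erase_of_mem hY₀, smul_eq_mul, hcard] at hcov
    rw [show n + 1 - 1 = n by omega] at hcov
    by_contra hcon
    push Not at hcon
    have h5 : n * (2 * k + 2) ≤ n * n := Nat.mul_le_mul_left n hcon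
    nlinarith
  have hall : ∀ Y : P, Y ∈ l → n ≤ 2 * (cut K l Y).card + 1 := by
    intro Y hY
    by_cases h0 : Y = Y₀
    · rw [h0]; omega
    · rw [hconst Y hY h0]; exact hk2
  choose bf hbfY hbfl hbfg hbfax hbftr using fun (Y : P) (hY : Y ∈ l) => hsingle Y hY (hall Y hY)
  have huniq : ∀ (Y : P) (hY : Y ∈ l) (g : Coll P L) (b : L), g ∈ K → g ≠ 1 → IsAxis g b →
      IsCentre g Y → Y ∈ b → b = bf Y hY := fun Y hY g b hgK hg1 hgb hgY hYb =>
    axis_unique hgb (hbfax Y hY g ⟨hgK, mem_elC_of_elation hgb hgY hYb⟩) hg1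
  have hb₀eq : b₀ = bf Y₀ hY₀l := huniq Y₀ hY₀l g₀ b₀ hg₀K hg₀1 hg₀b hg₀Y hYb₀
  set b₁ := bf Y₁ hY₁l with hb₁
  have hb01 : b₀ ≠ b₁ := fun e =>
    hY₁0 (point_eq hb₀l (e ▸ hbfY Y₁ hY₁l) hY₁l hYb₀ hY₀l)
  set J : P := meet b₀ b₁ with hJ
  have hJb : ∀ (Y : P) (hY : Y ∈ l), J ∈ bf Y hY := by
    intro Y hY
    by_cases h0 : Y = Y₀
    · subst h0; rw [← hb₀eq]; exact meet_mem_left _ _
    obtain ⟨g, hg, hgY⟩ := htr₀ Y₁ Y hY₁l hY₁0 hY h0
    obtain ⟨h, hhK, hh1, hha, hhc⟩ := hbfg Y₁ hY₁l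
    have e : g • b₁ = bf Y hY := by
      refine huniq Y hY (g * h * g⁻¹) (g • b₁) (K.mul_mem (K.mul_mem hg.1 hhK) (K.inv_mem hg.1))
        (fun e => hh1 ?_) (hha.conj g) (hgY ▸ hhc.conj g)
        (hgY ▸ (smul_mem_smul g Y₁ b₁).2 (hbfY Y₁ hY₁l))
      rwa [mul_inv_eq_one, mul_eq_left] at e
    rw [← e, ← hb₀ax g hg J (meet_mem_left _ _)]
    exact (smul_mem_smul g _ _).2 (meet_mem_right _ _)
  have hJl : J ∉ l := by
    intro hJl
    have e0 : J = Y₀ := point_eq hb₀l (meet_mem_left _ _) hJl hYb₀ hY₀l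
    have e1 : J = Y₁ := point_eq (hbfl Y₁ hY₁l) (meet_mem_right _ _) hJl (hbfY Y₁ hY₁l) hY₁l
    exact hY₁0 (e1.symm.trans e0)
  refine ⟨J, hJl, fun Y hY => ⟨?_, ?_, ?_⟩⟩
  · obtain ⟨h, hhK, hh1, hha, hhc⟩ := hbfg Y hY
    have e : bf Y hY = join Y J := eq_join (ne_of_mem_of_not_mem hY hJl) (hbfY Y hY) (hJb Y hY)
    exact ⟨h, hhK, hh1, e ▸ hha, hhc⟩
  · intro a ha
    obtain ⟨σ, hσ, h1, h2, hσa, hσY⟩ := ha
    have hσl : σ • l = l := hσY l hY
    have hmove : ∀ (Z : P) (hZ : Z ∈ l), σ • J ∈ bf Z hZ := by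
      intro Z hZ
      have hZ' : σ⁻¹ • Z ∈ l := by rw [← mem_smul_iff, hσl]; exact hZ
      obtain ⟨h, hhK, hh1, hha, hhc⟩ := hbfg _ hZ'
      have e : σ • bf _ hZ' = bf Z hZ := by
        refine huniq Z hZ (σ * h * σ⁻¹) _ (K.mul_mem (K.mul_mem hσ hhK) (K.inv_mem hσ))
          (fun e => hh1 ?_) (hha.conj σ) ?_ ?_
        · rwa [mul_inv_eq_one, mul_eq_left] at e
        · have := hhc.conj σ; rwa [smul_inv_smul] at this
        · have := (smul_mem_smul σ _ _).2 (hbfY _ hZ'); rwa [smul_inv_smul] at this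
      rw [← e]
      exact (smul_mem_smul σ J _).2 (hJb _ hZ')
    have hfix : σ • J = J := eq_meet hb01 (hb₀eq ▸ hmove Y₀ hY₀l) (hmove Y₁ hY₁l)
    rcases eq_centre_of_fixed hσa hσY h1 hfix with h3 | h3
    · exact h3
    · exact absurd (h3 ▸ hY) hJl
  · exact (elation_of_cut hK hl hY (by have := hall Y hY; omega)).1

open Classical in
/-- A line which is no axis forces prime power order. -/
theorem primePower_of_nonAxis (hK : HomData K) {l : L} (hl : ∀ c, ¬ Hom K c l) :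
    PrimePowerOrder P L := by
  by_contra hpp
  by_cases hn : order P L = 3
  · exact hpp (primePower_three hn)
  rcases nonAxis_structure hK hn hl with h | ⟨J, hJl, hJ⟩
  · exact hpp h
  have := Fintype.ofFinite P
  have hn5 : 5 ≤ order P L := by
    have := two_le_order (P := P) (L := L)
    rcases hK.odd with ⟨k, hk⟩; omega
  have hcov := coverage hK hl
  obtain ⟨Y₀, hY₀, hc₀⟩ : ∃ Y ∈ Finset.univ.filter (fun Y : P => Y ∈ l),
      order P L ≤ 2 * (cut K l Y).card := by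
    by_contra hcon
    push Not at hcon
    have hcard : (Finset.univ.filter fun Y : P => Y ∈ l).card = order P L + 1 := by
      rw [← ncard_pts (P := P) l, pts, Set.ncard_eq_toFinset_card']
      congr 1; ext; simp
    have hne : (Finset.univ.filter fun Y : P => Y ∈ l).Nonempty := Finset.card_pos.1 (by omega)
    have h1 := Finset.sum_lt_sum_of_nonempty hne hcon
    rw [← Finset.mul_sum, Finset.sum_const, smul_eq_mul, hcard] at h1
    omega
  have hY₀l : Y₀ ∈ l := (Finset.mem_filter.1 hY₀).2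
  obtain ⟨-, -, o, hco, hon, hoq, -⟩ := elation_of_cut hK hl hY₀l (by omega)
  have ho : o = order P L := by
    obtain ⟨k, hk⟩ := hon
    have hkodd : Odd k := (hk ▸ hK.odd).of_dvd_nat (dvd_mul_left k o)
    rcases hkodd with ⟨i, rfl⟩
    rcases Nat.eq_zero_or_pos i with rfl | hi
    · simpa using hk.symm
    · have h3 : o * 3 ≤ o * (2 * i + 1) := Nat.mul_le_mul_left o (by omega)
      omega
  set b₀ : L := join Y₀ J with hb₀
  -- a second centre on `b₀` suffices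
  suffices h2 : TwoCentres b₀ (K ⊓ elA b₀) ∧ ∀ g ∈ K ⊓ elC Y₀, IsAxis g b₀ by
    obtain ⟨q, hq, hqp⟩ := h2.1.isPGroup (inf_le_right : K ⊓ elA b₀ ≤ elA b₀)
    have hle : K ⊓ elC Y₀ ≤ K ⊓ elA b₀ := fun g hg => ⟨hg.1,
      mem_elA_of_elation (h2.2 g hg) (centre_of_mem_elC hg.2) (left_mem_join Y₀ J)⟩
    obtain ⟨e, he⟩ := hoq q hq (hqp.to_le hle)
    exact hpp ⟨q, e, hq, ho.symm.trans he⟩
  obtain ⟨⟨g₀, hg₀K, hg₀1, hg₀b, hg₀Y⟩, -, -⟩ := hJ Y₀ hY₀l
  by_cases hsingle : ∀ g ∈ K ⊓ elC Y₀, IsAxis g b₀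
  swap
  · exfalso
    push Not at hsingle
    obtain ⟨g, hg, hgb⟩ := hsingle
    have h1 : g ≠ 1 := fun e => hgb fun p _ => by rw [e, one_smul]
    obtain ⟨b, -, hb⟩ := exists_axis_of_mem_elC hg.2
    obtain ⟨q, hq, hqH⟩ := isPGroup_of_two_axes (inf_le_right : K ⊓ elC Y₀ ≤ elC Y₀) hg
      (⟨hg₀K, mem_elC_of_elation hg₀b hg₀Y (left_mem_join Y₀ J)⟩ : g₀ ∈ K ⊓ elC Y₀) h1 hg₀1 hb
      hg₀b (fun (e : b = b₀) => hgb (e ▸ hb))
    obtain ⟨e, he⟩ := hoq q hq hqH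
    exact hpp ⟨q, e, hq, ho.symm.trans he⟩
  refine ⟨?_, hsingle⟩
  obtain ⟨Y₁, hY₁l, hY₁0⟩ := exists_point_on_ne l Y₀
  obtain ⟨x, hxb, hx0, hxJ⟩ := exists_point_on_ne₂ b₀ Y₀ J
  have hb₀l : b₀ ≠ l := fun e => hJl (e ▸ right_mem_join Y₀ J)
  have hY₁b : Y₁ ∉ b₀ := fun e => hY₁0 (point_eq hb₀l e hY₁l (left_mem_join Y₀ J) hY₀l)
  set m : L := join x Y₁ with hm
  have hmb : m ≠ b₀ := fun e => hY₁b (e ▸ right_mem_join x Y₁)
  have hJm : J ∉ m := fun e =>
    hxJ (point_eq hmb (left_mem_join x Y₁) hxb e (right_mem_join Y₀ J))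
  obtain ⟨-, hJax, a₁, a₂, ha12, ha1, ha2⟩ := hJ Y₁ hY₁l
  have hg₀A : g₀ ∈ K ⊓ elA b₀ :=
    ⟨hg₀K, mem_elA_of_elation hg₀b hg₀Y (left_mem_join Y₀ J)⟩
  by_cases hax : ∃ c, Hom K c m
  · obtain ⟨c, hc⟩ := hax
    obtain ⟨σ, hσ, h1, h2, hσm, hσc⟩ := hc
    have hσY : σ • Y₁ = Y₁ := hσm Y₁ (right_mem_join x Y₁)
    have hfix : σ • J = J := by
      have e1 := ha1.conj hσ
      have e2 := ha2.conj hσ
      rw [hσY] at e1 e2
      exact point_eq (fun e : σ • a₁ = σ • a₂ => ha12 (smul_left_cancel σ e))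
        ((smul_mem_smul σ J a₁).2 (hJax a₁ ha1)) ((smul_mem_smul σ J a₂).2 (hJax a₂ ha2))
        (hJax _ e1) (hJax _ e2)
    have hcJ : J = c := (eq_centre_of_fixed hσm hσc h1 hfix).resolve_left hJm
    have hH : Hom K J m := ⟨σ, hσ, h1, h2, hσm, hcJ ▸ hσc⟩
    have hH' := hH.conj hg₀K
    rw [hg₀b J (right_mem_join Y₀ J)] at hH'
    have hne : m ≠ g₀ • m := fun e => by
      rcases eq_axis_of_fixed hg₀b hg₀Y hg₀1 e.symm with h3 | h3
      · exact hx0 (point_eq hmb (left_mem_join x Y₁) hxb h3 (left_mem_join Y₀ J))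
      · exact hmb h3
    obtain ⟨b, hJb, hxb', ⟨g, hgK, hg1, hgb, hgJ⟩, -⟩ := two_axes hK hH hH' hne
    have hxm : (meet m (g₀ • m) : P) = x :=
      (eq_meet hne (left_mem_join x Y₁) (hg₀b x hxb ▸ (smul_mem_smul g₀ x m).2 (left_mem_join x Y₁))).symm
    rw [hxm] at hxb'
    have hbb : b = b₀ := line_eq hxJ hxb' hJb hxb (right_mem_join Y₀ J)
    subst hbb
    exact ⟨g₀, hg₀A, g, ⟨hgK, mem_elA_of_elation hgb hgJ hJb⟩, Y₀, J, hg₀1, hg1, hg₀Y, hgJ,
      fun e => hJl (e ▸ hY₀l), left_mem_join Y₀ J, right_mem_join Y₀ J⟩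
  · push Not at hax
    rcases nonAxis_structure hK hn hax with hp | ⟨J', -, hJ'⟩
    · exact absurd hp hpp
    obtain ⟨-, hJ'ax, -⟩ := hJ' Y₁ (right_mem_join x Y₁)
    have hJJ : J' = J := point_eq ha12 (hJ'ax a₁ ha1) (hJ'ax a₂ ha2) (hJax a₁ ha1) (hJax a₂ ha2)
    obtain ⟨⟨g, hgK, hg1, hgb, hgx⟩, -, -⟩ := hJ' x (left_mem_join x Y₁)
    have hbb : (join x J' : L) = b₀ := by
      rw [hJJ]; exact (eq_join hxJ hxb (right_mem_join Y₀ J)).symm
    rw [hbb] at hgb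
    exact ⟨g₀, hg₀A, g, ⟨hgK, mem_elA_of_elation hgb hgx hxb⟩, Y₀, x, hg₀1, hg1, hg₀Y, hgx,
      hx0.symm, left_mem_join Y₀ J, hxb⟩

end Cfsg.Agent.H27.OW
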