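import Mathlib
import Cfsg.Agent.H27.OW.Homology

/-!
# Planes with many involutory homologies have prime power order: conclusion
-/

set_option autoImplicit false
set_option linter.unusedSectionVars false

namespace Cfsg.Agent.H27.OW

open Configuration Configuration.ProjectivePlane

variable {P L : Type*} [Membership P L] [ProjectivePlane P L] [Finite P] [Finite L]

theorem PrimePowerOrder.of_dual (h : PrimePowerOrder (Dual L) (Dual P)) : PrimePowerOrder P L := by
  obtain ⟨q, e, hq, he⟩ := h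
  exact ⟨q, e, hq, by rwa [Configuration.ProjectivePlane.Dual.order] at he⟩

/-- A plane has no polarity without absolute points. -/
theorem false_of_polarity (π : P → L) (hinj : Function.Injective π)
    (hsymm : ∀ X Y : P, X ∈ π Y → Y ∈ π X) (hno : ∀ X : P, X ∉ π X) : False := by
  classical
  have := Fintype.ofFinite P
  have hn := two_le_order (P := P) (L := L)
  obtain ⟨q, hq, hqn⟩ := Nat.exists_prime_and_dvd (show order P L ≠ 1 by omega)
  have := Fact.mk hq
  set N : Matrix P P (ZMod q) := Matrix.of fun X Y => if X ∈ π Y then 1 else 0 with hN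
  set J : Matrix P P (ZMod q) := Matrix.of fun _ _ => 1 with hJ
  have hn0 : ((order P L : ℕ) : ZMod q) = 0 := (ZMod.natCast_eq_zero_iff _ _).2 hqn
  have hpts : ∀ l : L, ((Finset.univ.filter fun Y : P => Y ∈ l).card : ZMod q) = 1 := by
    intro l
    have h1 : (Finset.univ.filter fun Y : P => Y ∈ l).card = order P L + 1 := by
      rw [← ncard_pts (P := P) l, pts, Set.ncard_eq_toFinset_card']
      congr 1; ext; simp
    rw [h1, Nat.cast_add, hn0, zero_add, Nat.cast_one]
  have hNN : N * N = J := by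
    ext X Z
    rw [Matrix.mul_apply, hJ, Matrix.of_apply, Finset.sum_congr rfl fun Y _ =>
      show N X Y * N Y Z = if Y ∈ π X ∧ Y ∈ π Z then 1 else 0 from ?_, Finset.sum_boole]
    · by_cases hXZ : X = Z
      · subst hXZ
        simpa using hpts (π X)
      · have h1 : (Finset.univ.filter fun Y : P => Y ∈ π X ∧ Y ∈ π Z) = {meet (π X) (π Z)} := by
          ext Y
          simp only [Finset.mem_filter, Finset.mem_univ, true_and, Finset.mem_singleton]
          exact ⟨fun h => eq_meet (fun e => hXZ (hinj e)) h.1 h.2,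
            fun h => h ▸ ⟨meet_mem_left _ _, meet_mem_right _ _⟩⟩
        rw [h1, Finset.card_singleton, Nat.cast_one]
    · simp only [hN, Matrix.of_apply]
      by_cases h1 : X ∈ π Y
      · have h1' := hsymm X Y h1
        simp [h1, h1']
      · have h1' : Y ∉ π X := fun e => h1 (hsymm Y X e)
        simp [h1, h1']
  have hJN : J * N = J := by
    ext X Z
    rw [Matrix.mul_apply, hJ, hN]
    simp only [Matrix.of_apply, one_mul]
    rw [Finset.sum_boole]
    exact hpts (π Z)
  have hpow : ∀ k : ℕ, N ^ (k + 2) = J := by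
    intro k
    induction k with
    | zero => rw [zero_add, pow_two, hNN]
    | succ k ih => rw [show k + 1 + 2 = (k + 2) + 1 from by omega, pow_succ, ih, hJN]
  have htr : N.trace = 0 := by
    rw [Matrix.trace]
    refine Finset.sum_eq_zero fun X _ => ?_
    rw [Matrix.diag_apply, hN, Matrix.of_apply, if_neg (hno X)]
  have htrJ : J.trace = 1 := by
    rw [Matrix.trace]
    simp only [Matrix.diag_apply, hJ, Matrix.of_apply, Finset.sum_const, Finset.card_univ,
      nsmul_eq_mul, mul_one]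
    rw [← Nat.card_eq_fintype_card, natCard_points (P := P) (L := L), Nat.cast_add, Nat.cast_add,
      Nat.cast_pow, hn0, Nat.cast_one]
    simp
  have h1 := ZMod.trace_pow_card N
  obtain ⟨k, hk⟩ : ∃ k, q = k + 2 := ⟨q - 2, by have := hq.two_le; omega⟩
  rw [show N ^ q = J from hk ▸ hpow k, htrJ, htr, zero_pow hq.ne_zero] at h1
  exact one_ne_zero h1

variable {K : Subgroup (Coll P L)}

/-- An elation moving an axis gives an elation with the same axis and the given centre. -/
theorem elation_at (hK : HomData K) {a : L} {e : Coll P L} {X Z : P} (heK : e ∈ K) (he1 : e ≠ 1)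
    (hea : IsAxis e a) (heX : IsCentre e X) (hZa : Z ∈ a) {z' : L} (hz : Hom K Z z')
    (hXz : X ∉ z') : ∃ h ∈ K, h ≠ 1 ∧ IsAxis h a ∧ IsCentre h Z := by
  have hZz := hz.not_mem hK
  have hza : z' ≠ a := fun e' => hZz (e' ▸ hZa)
  have hne : z' ≠ e • z' := fun e' => by
    rcases eq_axis_of_fixed hea heX he1 e'.symm with h | h
    · exact hXz h
    · exact hza h
  have hz' := hz.conj heK
  rw [hea Z hZa] at hz'
  obtain ⟨b, hZb, hIb, ⟨h, hhK, hh1, hhb, hhZ⟩, -⟩ := two_axes hK hz hz' hne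
  set D : P := meet z' a with hD
  have hDI : (meet z' (e • z') : P) = D :=
    (eq_meet hne (meet_mem_left z' a)
      (by change D ∈ e • z'; rw [← hea D (meet_mem_right z' a)]; exact (smul_mem_smul e D z').2 (meet_mem_left z' a))).symm
  rw [hDI] at hIb
  have hZD : Z ≠ D := fun e' => hZz (e' ▸ meet_mem_left z' a)
  exact ⟨h, hhK, hh1, line_eq hZD hZb hIb hZa (meet_mem_right z' a) ▸ hhb, hhZ⟩

/-- Elations with two centres on one axis. -/
theorem primePower_of_twoCentres (hK : HomData K) (hC : ∀ c : P, ∃ a, Hom K c a) {a : L}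
    (h2 : TwoCentres a (K ⊓ elA a)) : PrimePowerOrder P L := by
  classical
  have := Fintype.ofFinite P
  set H : Subgroup (Coll P L) := K ⊓ elA a with hH
  have hle : H ≤ elA a := inf_le_right
  obtain ⟨q, hq, hqH⟩ := h2.isPGroup hle
  have := Fact.mk hq
  obtain ⟨g, hg, h, hh, X, Y, hg1, hh1, hgX, hhY, hXY, hXa, hYa⟩ := h2
  have hall : ∀ Z : P, Z ∈ a → 2 ≤ eX H Z := by
    intro Z hZ
    obtain ⟨z', hz⟩ := hC Z
    have hza : z' ≠ a := fun e => hz.not_mem hK (e ▸ hZ)
    obtain ⟨e, heH, he1, W, heW, hWz⟩ :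
        ∃ e ∈ H, e ≠ 1 ∧ ∃ W, IsCentre e W ∧ W ∉ z' := by
      by_cases hXz : X ∈ z'
      · exact ⟨h, hh, hh1, Y, hhY, fun e => hXY (point_eq hza hXz hXa e hYa)⟩
      · exact ⟨g, hg, hg1, X, hgX, hXz⟩
    obtain ⟨f, hfK, hf1, hfa, hfZ⟩ := elation_at hK heH.1 he1 (hle heH).1 heW hZ hz hWz
    have hfH : f ∈ H ⊓ centreGroup Z := ⟨⟨hfK, mem_elA_of_elation hfa hfZ hZ⟩, hfZ⟩
    rw [eX]
    exact Finite.one_lt_card_iff_nontrivial.2
      ⟨⟨⟨f, hfH⟩, 1, fun e => hf1 (congrArg Subtype.val e)⟩⟩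
  obtain ⟨X0, hX0, hmin⟩ := Finset.exists_min_image (Finset.univ.filter fun Z : P => Z ∈ a) (eX H)
    ⟨X, Finset.mem_filter.2 ⟨Finset.mem_univ _, hXa⟩⟩
  have hX0a : X0 ∈ a := (Finset.mem_filter.1 hX0).2
  have hcard : (Finset.univ.filter fun Z : P => Z ∈ a).card = order P L + 1 := by
    rw [← ncard_pts (P := P) a, pts, Set.ncard_eq_toFinset_card']
    congr 1; ext; simp
  have hsum : (order P L + 1) * (eX H X0 - 1) ≤
      ∑ Z ∈ Finset.univ.filter (fun Z : P => Z ∈ a), (eX H Z - 1) := by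
    rw [← hcard, ← smul_eq_mul]
    exact Finset.card_nsmul_le_sum _ _ _ fun Z hZ => Nat.sub_le_sub_right (hmin Z hZ) 1
  have htot := card_eq_sum (a := a) hle
  have hmul := index_mul_eX H X0
  have hidx := gleason_arith (n := order P L) (M := ((centreGroup X0).subgroupOf H).index)
    (e := eX H X0) (by have := two_le_order (P := P) (L := L); omega) (hall X0 hX0a)
    (index_centre_dvd hle hX0a) (by omega)
  obtain ⟨k, hk⟩ := IsPGroup.index hqH ((centreGroup X0).subgroupOf H)
  exact ⟨q, k, hq, hidx.symm.trans hk⟩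

/-- A plane with such a group has prime power order. -/
theorem primePower_of_homData (hK : HomData K) : PrimePowerOrder P L := by
  by_contra hpp
  have hA : ∀ l : L, ∃ c, Hom K c l := fun l => by
    by_contra h
    push Not at h
    exact hpp (primePower_of_nonAxis hK h)
  have hC : ∀ c : P, ∃ a, Hom K c a := fun c => by
    by_contra h
    push Not at h
    exact hpp (PrimePowerOrder.of_dual
      (primePower_of_nonAxis (P := Dual L) (L := Dual P) (l := c) hK.dual fun a ha => h a ha.of_dual))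
  -- uniqueness of the centre of elations with given axis, and dually
  have hU : ∀ {a : L} {g h : Coll P L} {X Y : P}, g ∈ K → h ∈ K → g ≠ 1 → h ≠ 1 → IsAxis g a →
      IsAxis h a → IsCentre g X → IsCentre h Y → X ∈ a → Y ∈ a → X = Y := by
    intro a g h X Y hgK hhK hg1 hh1 hga hha hgX hhY hXa hYa
    by_contra hne
    exact hpp (primePower_of_twoCentres hK hC ⟨g, ⟨hgK, mem_elA_of_elation hga hgX hXa⟩, h,
      ⟨hhK, mem_elA_of_elation hha hhY hYa⟩, X, Y, hg1, hh1, hgX, hhY, hne, hXa, hYa⟩)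
  have hU' : ∀ {X : P} {g h : Coll P L} {a b : L}, g ∈ K → h ∈ K → g ≠ 1 → h ≠ 1 →
      IsCentre g X → IsCentre h X → IsAxis g a → IsAxis h b → X ∈ a → X ∈ b → a = b := by
    intro X g h a b hgK hhK hg1 hh1 hgX hhX hga hhb hXa hXb
    by_contra hne
    refine hpp (PrimePowerOrder.of_dual (primePower_of_twoCentres (P := Dual L) (L := Dual P)
      (a := X) hK.dual (fun l => ?_) ⟨dualColl P L g, ⟨⟨g, hgK, rfl⟩,
        mem_elA_of_elation (P := Dual L) (L := Dual P) hgX hga hXa⟩, dualColl P L h,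
      ⟨⟨h, hhK, rfl⟩, mem_elA_of_elation (P := Dual L) (L := Dual P) hhX hhb hXb⟩, a, b,
      fun e => hg1 ((dualColl P L).injective (by rw [e, map_one])),
      fun e => hh1 ((dualColl P L).injective (by rw [e, map_one])), hga, hhb, hne, hXa, hXb⟩))
    obtain ⟨c, hc⟩ := hA l
    exact ⟨c, hc.dual⟩
  -- an elation exists
  obtain ⟨g, X, a, hgK, hg1, hga, hgX, hXa⟩ :
      ∃ (g : Coll P L) (X : P) (a : L), g ∈ K ∧ g ≠ 1 ∧ IsAxis g a ∧ IsCentre g X ∧ X ∈ a := by
    by_contra hno
    push Not at hno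
    have huA : ∀ {c : P} {a a' : L}, Hom K c a → Hom K c a' → a = a' := by
      intro c a a' h h'
      by_contra hne
      obtain ⟨b, hcb, -, ⟨g, hgK, hg1, hgb, hgc⟩, -⟩ := two_axes hK h h' hne
      exact hno g c b hgK hg1 hgb hgc hcb
    have huC : ∀ {c c' : P} {a : L}, Hom K c a → Hom K c' a → c = c' := by
      intro c c' a h h'
      by_contra hne
      obtain ⟨b, hab, -, ⟨g, hgK, hg1, hgb, hgc⟩, -⟩ :=
        two_axes (P := Dual L) (L := Dual P) hK.dual h.dual h'.dual hne
      obtain ⟨s, hs, rfl⟩ := hgK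
      exact hno s b a hs (fun e => hg1 (by rw [e, map_one])) hgc hgb hab
    choose π hπ using hC
    refine false_of_polarity π (fun X Y e => huC (hπ X) (e ▸ hπ Y)) ?_ (fun X => (hπ X).not_mem hK)
    intro X Y hXY
    obtain ⟨σ, hσ, h1, h2, hσa, hσc⟩ := hπ Y
    have h3 := (hπ X).conj hσ
    rw [hσa X hXY] at h3
    rcases eq_axis_of_fixed hσa hσc h1 (huA (hπ X) h3).symm with h4 | h4
    · exact h4
    · exact absurd (huC (hπ X) (h4 ▸ hπ Y)) (fun (e : X = Y) => (hπ Y).not_mem hK (e ▸ hXY : Y ∈ π Y))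
  -- every axis at another point of `a` passes through `X`
  have hthru : ∀ Z : P, Z ∈ a → Z ≠ X → ∀ z', Hom K Z z' → X ∈ z' := by
    intro Z hZ hZX z' hz
    by_contra hXz
    obtain ⟨h, hhK, hh1, hha, hhZ⟩ := elation_at hK hgK hg1 hga hgX hZ hz hXz
    exact hZX (hU hhK hgK hh1 hg1 hha hga hhZ hgX hZ hXa)
  obtain ⟨x', hx⟩ := hC X
  have hXx := hx.not_mem hK
  have hxa : x' ≠ a := fun e => hXx (e ▸ hXa)
  set D : P := meet x' a with hD
  have hDX : D ≠ X := fun e => hXx (e ▸ meet_mem_left x' a)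
  obtain ⟨Z, hZa, hZX, hZD⟩ := exists_point_on_ne₂ a X D
  obtain ⟨z', hz⟩ := hC Z
  have hXz : X ∈ z' := hthru Z hZa hZX z' hz
  obtain ⟨σ, hσ, h1, h2, hσz, hσZ⟩ := hz
  have hσa : σ • a = a := hσZ a hZa
  have hx' := hx.conj hσ
  rw [hσz X hXz] at hx'
  have hne : x' ≠ σ • x' := fun e => by
    rcases eq_axis_of_fixed hσz hσZ h1 e.symm with h | h
    · exact hZD (point_eq hxa h hZa (meet_mem_left x' a) (meet_mem_right x' a))
    · exact hXx (h ▸ hXz)
  obtain ⟨b, hXb, hIb, ⟨f, hfK, hf1, hfb, hfX⟩, -⟩ := two_axes hK hx hx' hne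
  have hba : b = a := hU' hfK hgK hf1 hg1 hfX hgX hfb hga hXb hXa
  subst hba
  have hI : (meet x' (σ • x') : P) = D := point_eq hxa (meet_mem_left _ _) hIb (meet_mem_left x' b)
    (meet_mem_right x' b)
  have hσx : σ • x' ≠ b := fun e => hxa (smul_left_cancel σ (e.trans hσa.symm))
  have hσD : σ • D = D := point_eq hσx ((smul_mem_smul σ D x').2 (meet_mem_left x' b))
    (hσa ▸ (smul_mem_smul σ D b).2 (meet_mem_right x' b)) (hI ▸ meet_mem_right x' (σ • x'))
    (meet_mem_right x' b)
  have hzb : z' ≠ b := fun e => not_mem_axis hK.odd h1 h2 hσz hσZ (e ▸ hZa)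
  rcases eq_centre_of_fixed hσz hσZ h1 hσD with h | h
  · exact hDX (point_eq hzb h (meet_mem_right x' b) hXz hXa)
  · exact hZD h.symm

end Cfsg.Agent.H27.OW
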