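import Mathlib
import Cfsg.Agent.H27.OW.Dual

/-!
# The fixed subplane of a group of collineations
-/

set_option autoImplicit false
set_option linter.unusedSectionVars false

namespace Cfsg.Agent.H27.OW

open Configuration Configuration.ProjectivePlane

variable {P L : Type*} [Membership P L]

/-- The fixed points. -/
def fixP (S : Subgroup (Coll P L)) : Set P := {p | ∀ g ∈ S, g • p = p}

/-- The fixed lines. -/
def fixL (S : Subgroup (Coll P L)) : Set L := {l | ∀ g ∈ S, g • l = l}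

/-- The fixed points contain a quadrangle, in the form of two pairs of points on two lines. -/
def Quad (S : Subgroup (Coll P L)) : Prop :=
  ∃ (l m : L) (a b c d : P), l ≠ m ∧ a ∈ fixP S ∧ b ∈ fixP S ∧ c ∈ fixP S ∧ d ∈ fixP S ∧
    a ∈ l ∧ b ∈ l ∧ a ≠ b ∧ a ∉ m ∧ b ∉ m ∧ c ∈ m ∧ d ∈ m ∧ c ≠ d ∧ c ∉ l ∧ d ∉ l

/-- The type of fixed points. -/
def SubP (S : Subgroup (Coll P L)) : Type _ := {p : P // p ∈ fixP S}

/-- The type of fixed lines. -/
def SubL (S : Subgroup (Coll P L)) : Type _ := {l : L // l ∈ fixL S}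

instance (S : Subgroup (Coll P L)) [Finite P] : Finite (SubP S) := Subtype.finite

instance (S : Subgroup (Coll P L)) [Finite L] : Finite (SubL S) := Subtype.finite

instance (S : Subgroup (Coll P L)) : Membership (SubP S) (SubL S) := ⟨fun l p => p.1 ∈ l.1⟩

theorem sub_mem_iff {S : Subgroup (Coll P L)} (p : SubP S) (l : SubL S) : p ∈ l ↔ p.1 ∈ l.1 :=
  Iff.rfl

variable [ProjectivePlane P L] [Finite P] [Finite L] {S : Subgroup (Coll P L)}

theorem join_mem_fixL {p q : P} (hpq : p ≠ q) (hp : p ∈ fixP S) (hq : q ∈ fixP S) :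
    (join p q : L) ∈ fixL S := fun g hg => by rw [smul_join g hpq, hp g hg, hq g hg]

theorem meet_mem_fixP {l m : L} (hlm : l ≠ m) (hl : l ∈ fixL S) (hm : m ∈ fixL S) :
    (meet l m : P) ∈ fixP S := fun g hg => by rw [smul_meet g hlm, hl g hg, hm g hg]

theorem line_mem_fixL {p q : P} (hpq : p ≠ q) (hp : p ∈ fixP S) (hq : q ∈ fixP S) {l : L}
    (hpl : p ∈ l) (hql : q ∈ l) : l ∈ fixL S := eq_join hpq hpl hql ▸ join_mem_fixL hpq hp hq

/-- A quadrangle of fixed points gives one of fixed lines. -/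
theorem Quad.dual (h : Quad S) :
    Quad (P := Dual L) (L := Dual P) (S.map (dualColl P L).toMonoidHom) := by
  obtain ⟨l, m, a, b, c, d, hlm, ha, hb, hc, hd, hal, hbl, hab, ham, hbm, hcm, hdm, hcd, hcl,
    hdl⟩ := h
  have key : ∀ x y : P, x ≠ y → x ∈ fixP S → y ∈ fixP S →
      (join x y : L) ∈ fixP (P := Dual L) (L := Dual P) (S.map (dualColl P L).toMonoidHom) := by
    rintro x y hxy hx hy _ ⟨g, hg, rfl⟩
    exact join_mem_fixL hxy hx hy g hg
  have hac : a ≠ c := fun e => ham (e ▸ hcm)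
  have had : a ≠ d := fun e => ham (e ▸ hdm)
  have hbc : b ≠ c := fun e => hbm (e ▸ hcm)
  have hbd : b ≠ d := fun e => hbm (e ▸ hdm)
  have hb_ac : b ∉ (join a c : L) := fun e =>
    hcl (line_eq hab (left_mem_join a c) e hal hbl ▸ right_mem_join a c)
  have hb_ad : b ∉ (join a d : L) := fun e =>
    hdl (line_eq hab (left_mem_join a d) e hal hbl ▸ right_mem_join a d)
  have ha_bc : a ∉ (join b c : L) := fun e =>
    hcl (line_eq hab e (left_mem_join b c) hal hbl ▸ right_mem_join b c)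
  have ha_bd : a ∉ (join b d : L) := fun e =>
    hdl (line_eq hab e (left_mem_join b d) hal hbl ▸ right_mem_join b d)
  have h1 : (join a c : L) ≠ join a d := fun e =>
    ham (line_eq hcd (right_mem_join a c) (e ▸ right_mem_join a d) hcm hdm ▸ left_mem_join a c)
  have h2 : (join b c : L) ≠ join b d := fun e =>
    hbm (line_eq hcd (right_mem_join b c) (e ▸ right_mem_join b d) hcm hdm ▸ left_mem_join b c)
  exact ⟨a, b, (join a c : L), (join a d : L), (join b c : L), (join b d : L), hab,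
    key a c hac ha hc, key a d had ha hd, key b c hbc hb hc, key b d hbd hb hd,
    left_mem_join a c, left_mem_join a d, h1, hb_ac, hb_ad, left_mem_join b c, left_mem_join b d,
    h2, ha_bc, ha_bd⟩

/-- The fixed subplane. -/
@[reducible]
noncomputable def subPlane (hq : Quad S) : ProjectivePlane (SubP S) (SubL S) where
  exists_point := by
    rintro ⟨k, hk⟩
    obtain ⟨l, m, a, b, c, d, -, ha, hb, hc, -, hal, hbl, hab, -, -, -, -, -, hcl, -⟩ := hq
    by_cases h1 : a ∈ k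
    · by_cases h2 : b ∈ k
      · exact ⟨⟨c, hc⟩, fun e : c ∈ k => hcl (line_eq hab h1 h2 hal hbl ▸ e)⟩
      · exact ⟨⟨b, hb⟩, h2⟩
    · exact ⟨⟨a, ha⟩, h1⟩
  exists_line := by
    rintro ⟨x, hx⟩
    obtain ⟨l, m, a, b, c, d, hlm, ha, hb, hc, hd, hal, hbl, hab, ham, hbm, hcm, hdm, hcd, hcl,
      hdl⟩ := hq
    by_cases h1 : x ∈ l
    · by_cases h2 : x ∈ m
      · refine ⟨⟨join a c, join_mem_fixL (fun e => ham (e ▸ hcm)) ha hc⟩, fun e : x ∈ (join a c : L) => ?_⟩
        have hxa : x ≠ a := fun e' => ham (e' ▸ h2)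
        exact hcl (line_eq hxa e (left_mem_join a c) h1 hal ▸ right_mem_join a c)
      · exact ⟨⟨m, line_mem_fixL hcd hc hd hcm hdm⟩, h2⟩
    · exact ⟨⟨l, line_mem_fixL hab ha hb hal hbl⟩, h1⟩
  eq_or_eq := by
    intro p₁ p₂ l₁ l₂ h₁ h₂ h₃ h₄
    exact (Nondegenerate.eq_or_eq (P := P) (L := L) (h₁ : p₁.1 ∈ l₁.1) (h₂ : p₂.1 ∈ l₁.1)
      (h₃ : p₁.1 ∈ l₂.1) (h₄ : p₂.1 ∈ l₂.1)).imp Subtype.ext Subtype.ext
  mkPoint {l₁ l₂} h := ⟨meet l₁.1 l₂.1, meet_mem_fixP (fun e => h (Subtype.ext e)) l₁.2 l₂.2⟩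
  mkPoint_ax {l₁ l₂} _ := ⟨(meet_mem_left (P := P) l₁.1 l₂.1 :), (meet_mem_right (P := P) l₁.1 l₂.1 :)⟩
  mkLine {p₁ p₂} h := ⟨join p₁.1 p₂.1, join_mem_fixL (fun e => h (Subtype.ext e)) p₁.2 p₂.2⟩
  mkLine_ax {p₁ p₂} _ := ⟨(left_mem_join (L := L) p₁.1 p₂.1 :), (right_mem_join (L := L) p₁.1 p₂.1 :)⟩
  exists_config := by
    obtain ⟨l, m, a, b, c, d, hlm, ha, hb, hc, hd, hal, hbl, hab, ham, hbm, hcm, hdm, hcd, hcl,
      hdl⟩ := hq
    have hac : a ≠ c := fun e => ham (e ▸ hcm)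
    refine ⟨⟨d, hd⟩, ⟨a, ha⟩, ⟨b, hb⟩, ⟨m, line_mem_fixL hcd hc hd hcm hdm⟩,
      ⟨l, line_mem_fixL hab ha hb hal hbl⟩, ⟨join a c, join_mem_fixL hac ha hc⟩,
      hdl, ?_, ham, hal, left_mem_join a c, hbm, hbl, ?_⟩
    · exact fun e : d ∈ (join a c : L) =>
        ham (line_eq hcd (right_mem_join a c) e hcm hdm ▸ left_mem_join a c)
    · exact fun e : b ∈ (join a c : L) =>
        hcl (line_eq hab (left_mem_join a c) e hal hbl ▸ right_mem_join a c)

/-! ### Restriction to the subplane -/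

/-- The normaliser of `S`. -/
abbrev nz (S : Subgroup (Coll P L)) : Subgroup (Coll P L) := Subgroup.normalizer (S : Set (Coll P L))

theorem conj_inv_mem {g : Coll P L} (hg : g ∈ nz S) {k : Coll P L} (hk : k ∈ S) : g⁻¹ * k * g ∈ S := by
  have h := (Subgroup.mem_normalizer_iff.1 ((nz S).inv_mem hg) k).1 hk
  rwa [inv_inv] at h

theorem smul_mem_fixP {g : Coll P L} (hg : g ∈ nz S) {p : P} (hp : p ∈ fixP S) :
    g • p ∈ fixP S := fun k hk => by
  have h1 := hp _ (conj_inv_mem hg hk)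
  rw [mul_smul, mul_smul, inv_smul_eq_iff] at h1
  exact h1

theorem smul_mem_fixL {g : Coll P L} (hg : g ∈ nz S) {l : L} (hl : l ∈ fixL S) :
    g • l ∈ fixL S := fun k hk => by
  have h1 := hl _ (conj_inv_mem hg hk)
  rw [mul_smul, mul_smul, inv_smul_eq_iff] at h1
  exact h1

/-- The restriction of the normaliser to the fixed subplane. -/
noncomputable def res (S : Subgroup (Coll P L)) : nz S →* Coll (SubP S) (SubL S) :=
  MonoidHom.mk' (fun g => ⟨(
    { toFun := fun p => ⟨(g : Coll P L) • p.1, smul_mem_fixP g.2 p.2⟩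
      invFun := fun p => ⟨(g : Coll P L)⁻¹ • p.1, smul_mem_fixP ((nz S).inv_mem g.2) p.2⟩
      left_inv := fun p => Subtype.ext (inv_smul_smul _ p.1)
      right_inv := fun p => Subtype.ext (smul_inv_smul _ p.1) },
    { toFun := fun l => ⟨(g : Coll P L) • l.1, smul_mem_fixL g.2 l.2⟩
      invFun := fun l => ⟨(g : Coll P L)⁻¹ • l.1, smul_mem_fixL ((nz S).inv_mem g.2) l.2⟩
      left_inv := fun l => Subtype.ext (inv_smul_smul _ l.1)
      right_inv := fun l => Subtype.ext (smul_inv_smul _ l.1) }),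
    fun p l => smul_mem_smul (g : Coll P L) p.1 l.1⟩)
    fun g h => Subtype.ext (Prod.ext (Equiv.ext fun p => Subtype.ext (mul_smul (g : Coll P L) h p.1))
      (Equiv.ext fun l => Subtype.ext (mul_smul (g : Coll P L) h l.1)))

theorem res_smul_point (g : nz S) (p : SubP S) : (res S g • p).1 = (g : Coll P L) • p.1 := rfl

theorem res_smul_line (g : nz S) (l : SubL S) : (res S g • l).1 = (g : Coll P L) • l.1 := rfl

/-- An element of prime power order normalising a `q`-group `S` and acting nontrivially on its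
fixed subplane gives a larger `q`-group. -/
theorem exists_larger {q : ℕ} [Fact q.Prime] (hS : IsPGroup q S) (g : nz S)
    (hg : res S g ≠ 1) (hgo : ∃ k, orderOf (res S g) = q ^ k) :
    ∃ W : Subgroup (Coll P L), S < W ∧ IsPGroup q W ∧
      (∀ p : SubP S, res S g • p = p → p.1 ∈ fixP W) ∧
      (∀ l : SubL S, res S g • l = l → l.1 ∈ fixL W) := by
  obtain ⟨k, hk⟩ := hgo
  obtain ⟨j, m, hm, hgm⟩ := Nat.exists_eq_pow_mul_and_not_dvd
    (orderOf_pos g).ne' q (Fact.out : q.Prime).ne_one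
  set h : nz S := g ^ m with hh
  have hm0 : m ≠ 0 := by rintro rfl; exact hm (dvd_zero q)
  have hhord : orderOf h = q ^ j := by
    rw [hh, orderOf_pow_of_dvd hm0 (Dvd.intro_left _ hgm.symm), hgm,
      Nat.mul_div_cancel _ (Nat.pos_of_ne_zero hm0)]
  have hres : res S h ≠ 1 := by
    rw [hh, map_pow]
    intro e
    have h1 := orderOf_dvd_of_pow_eq_one e
    rw [hk] at h1
    cases k with
    | zero => exact hg (orderOf_eq_one_iff.1 (by rw [hk, pow_zero]))
    | succ k => exact hm ((dvd_pow_self q (Nat.succ_ne_zero k)).trans h1)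
  set Z : Subgroup (Coll P L) := Subgroup.zpowers (h : Coll P L) with hZdef
  have hZ : IsPGroup q Z := by
    refine IsPGroup.of_card (n := j) ?_
    rw [hZdef, Nat.card_zpowers, Subgroup.orderOf_coe, hhord]
  have hle : Z ≤ nz S := Subgroup.zpowers_le.2 h.2
  refine ⟨S ⊔ Z, lt_of_le_of_ne le_sup_left fun e => hres ?_, ?_, fun p hp => ?_,
    fun l hl => ?_⟩
  · have hhS : (h : Coll P L) ∈ S := by
      exact e.ge (Subgroup.mem_sup_right (Subgroup.mem_zpowers _))
    refine coll_ext (fun p => Subtype.ext ?_) fun l => Subtype.ext ?_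
    · exact (res_smul_point h p).trans (p.2 _ hhS)
    · exact (res_smul_line h l).trans (l.2 _ hhS)
  · rw [sup_comm]; exact IsPGroup.to_sup_of_normal_right' hZ hS hle
  · have h1 : (h : Coll P L) • p.1 = p.1 := by
      rw [← res_smul_point h p, hh, map_pow]
      exact congrArg Subtype.val ((MulAction.stabilizer (Coll (SubP S) (SubL S)) p).pow_mem hp m)
    have h2 : S ⊔ Z ≤ MulAction.stabilizer (Coll P L) p.1 :=
      sup_le (fun s hs => p.2 s hs) (Subgroup.zpowers_le.2 h1)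
    exact fun w hw => h2 hw
  · have h1 : (h : Coll P L) • l.1 = l.1 := by
      rw [← res_smul_line h l, hh, map_pow]
      exact congrArg Subtype.val ((MulAction.stabilizer (Coll (SubP S) (SubL S)) l).pow_mem hl m)
    have h2 : S ⊔ Z ≤ MulAction.stabilizer (Coll P L) l.1 :=
      sup_le (fun s hs => l.2 s hs) (Subgroup.zpowers_le.2 h1)
    exact fun w hw => h2 hw

end Cfsg.Agent.H27.OW
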