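import Mathlib
import Cfsg.Agent.H27.OW.Subplane

/-!
# Fixed configurations and Baer's theorem on involutions
-/

set_option autoImplicit false
set_option linter.unusedSectionVars false

namespace Cfsg.Agent.H27.OW

open Configuration Configuration.ProjectivePlane

variable {P L : Type*} [Membership P L] [ProjectivePlane P L] [Finite P] [Finite L]
  {S : Subgroup (Coll P L)}

theorem mem_fixP_zpowers {g : Coll P L} {p : P} :
    p ∈ fixP (Subgroup.zpowers g) ↔ g • p = p := by
  refine ⟨fun h => h g (Subgroup.mem_zpowers g), fun h k hk => ?_⟩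
  obtain ⟨i, rfl⟩ := Subgroup.mem_zpowers_iff.1 hk
  exact (MulAction.stabilizer (Coll P L) p).zpow_mem h i

theorem mem_fixL_zpowers {g : Coll P L} {l : L} :
    l ∈ fixL (Subgroup.zpowers g) ↔ g • l = l := by
  refine ⟨fun h => h g (Subgroup.mem_zpowers g), fun h k hk => ?_⟩
  obtain ⟨i, rfl⟩ := Subgroup.mem_zpowers_iff.1 hk
  exact (MulAction.stabilizer (Coll P L) l).zpow_mem h i

/-- Without a quadrangle of fixed points all fixed points but one lie on a line. -/
theorem exists_line_point_of_not_quad (h : ¬ Quad S) :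
    ∃ (a : L) (c : P), ∀ p ∈ fixP S, p ∈ a ∨ p = c := by
  obtain ⟨x₀⟩ : Nonempty P := by
    rcases isEmpty_or_nonempty P with hP | hP
    · exfalso
      have := natCard_points (P := P) (L := L)
      rw [Nat.card_of_isEmpty] at this
      omega
    · exact hP
  by_cases h3 : ∃ (a : L) (u v w : P), u ∈ fixP S ∧ v ∈ fixP S ∧ w ∈ fixP S ∧ u ∈ a ∧ v ∈ a ∧
      w ∈ a ∧ u ≠ v ∧ u ≠ w ∧ v ≠ w
  · obtain ⟨a, u, v, w, hu, hv, hw, hua, hva, hwa, huv, huw, hvw⟩ := h3
    by_cases hoff : ∃ c ∈ fixP S, c ∉ a
    · obtain ⟨c, hc, hca⟩ := hoff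
      refine ⟨a, c, fun d hd => ?_⟩
      by_contra hcon
      push Not at hcon
      obtain ⟨hda, hdc⟩ := hcon
      set m : L := join c d with hm
      have hma : a ≠ m := fun e => hca (e ▸ left_mem_join c d)
      have key : ∀ p q : P, p ∈ fixP S → q ∈ fixP S → p ∈ a → q ∈ a → p ≠ q → p ∉ m → q ∉ m →
          False := fun p q hp hq hpa hqa hpq hpm hqm =>
        h ⟨a, m, p, q, c, d, hma, hp, hq, hc, hd, hpa, hqa, hpq, hpm, hqm, left_mem_join c d,
          right_mem_join c d, hdc.symm, hca, hda⟩
      by_cases hum : u ∈ m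
      · exact key v w hv hw hva hwa hvw (fun e => huv (point_eq hma hua hum hva e))
          (fun e => huw (point_eq hma hua hum hwa e))
      by_cases hvm : v ∈ m
      · exact key u w hu hw hua hwa huw hum (fun e => hvw (point_eq hma hva hvm hwa e))
      · exact key u v hu hv hua hva huv hum hvm
    · push Not at hoff
      exact ⟨a, x₀, fun d hd => Or.inl (hoff d hd)⟩
  · push Not at h3
    by_cases h2 : ∃ u ∈ fixP S, ∃ v ∈ fixP S, u ≠ v
    · obtain ⟨u, hu, v, hv, huv⟩ := h2
      set a : L := join u v with ha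
      by_cases hoff : ∃ c ∈ fixP S, c ∉ a
      · obtain ⟨c, hc, hca⟩ := hoff
        refine ⟨a, c, fun d hd => ?_⟩
        by_contra hcon
        push Not at hcon
        obtain ⟨hda, hdc⟩ := hcon
        have hum : u ∉ (join c d : L) := fun e =>
          hdc (h3 (join c d) u c d hu hc hd e (left_mem_join c d) (right_mem_join c d)
            (fun e' => hca (e' ▸ left_mem_join u v)) (fun e' => hda (e' ▸ left_mem_join u v))).symm
        have hvm : v ∉ (join c d : L) := fun e =>
          hdc (h3 (join c d) v c d hv hc hd e (left_mem_join c d) (right_mem_join c d)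
            (fun e' => hca (e' ▸ right_mem_join u v)) (fun e' => hda (e' ▸ right_mem_join u v))).symm
        exact h ⟨a, join c d, u, v, c, d, fun e => hca (e ▸ left_mem_join c d), hu, hv, hc, hd,
          left_mem_join u v, right_mem_join u v, huv, hum, hvm, left_mem_join c d,
          right_mem_join c d, hdc.symm, hca, hda⟩
      · push Not at hoff
        exact ⟨a, x₀, fun d hd => Or.inl (hoff d hd)⟩
    · push Not at h2
      by_cases h1 : ∃ u, u ∈ fixP S
      · obtain ⟨u, hu⟩ := h1
        exact ⟨(exists_mem_line (L := L) u).choose, x₀,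
          fun d hd => Or.inl (h2 u hu d hd ▸ (exists_mem_line (L := L) u).choose_spec)⟩
      · exact ⟨(exists_mem_line (L := L) x₀).choose, x₀, fun d hd => absurd ⟨d, hd⟩ h1⟩

/-- A quadrangle is not contained in a line and one more point. -/
theorem Quad.not_line_point (h : Quad S) (a : L) (c : P) :
    ¬ ∀ p ∈ fixP S, p ∈ a ∨ p = c := by
  intro hall
  obtain ⟨l, m, x, y, z, w, -, hx, hy, hz, hw, hxl, hyl, hxy, hxm, hym, hzm, hwm, hzw, hzl, hwl⟩ := h
  have h1 : a = l ∨ x = c ∨ y = c := by
    rcases hall x hx with e | e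
    · rcases hall y hy with e' | e'
      · exact Or.inl (line_eq hxy e e' hxl hyl)
      · exact Or.inr (Or.inr e')
    · exact Or.inr (Or.inl e)
  have h2 : a = m ∨ z = c ∨ w = c := by
    rcases hall z hz with e | e
    · rcases hall w hw with e' | e'
      · exact Or.inl (line_eq hzw e e' hzm hwm)
      · exact Or.inr (Or.inr e')
    · exact Or.inr (Or.inl e)
  rcases h1 with e | e | e <;> rcases h2 with f | f | f
  · exact hxm (f ▸ e ▸ hxl)
  all_goals first
    | (subst e f; first
        | exact hwl (((hall w hw).resolve_right hzw.symm))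
        | exact hzl (((hall z hz).resolve_right hzw))
        | exact hym (((hall y hy).resolve_right hxy.symm))
        | exact hxm (((hall x hx).resolve_right hxy))
        | exact hzl hxl
        | exact hzl hyl
        | exact hwl hxl
        | exact hwl hyl)

theorem not_quad_of_axis {g : Coll P L} (hg : g ≠ 1) {a : L} (ha : IsAxis g a)
    (hS : g ∈ S) : ¬ Quad S := by
  intro hq
  obtain ⟨c, hc⟩ := ha.exists_centre
  exact hq.not_line_point a c fun p hp => eq_centre_of_fixed ha hc hg (hp g hS)

section Involution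

variable {σ : Coll P L} (hσ : σ * σ = 1) (hσ1 : σ ≠ 1)

include hσ

theorem smul_smul_self_point (p : P) : σ • σ • p = p := by rw [← mul_smul, hσ, one_smul]

theorem join_fixed_of_moved {p : P} (hp : σ • p ≠ p) :
    σ • (join p (σ • p) : L) = join p (σ • p) := by
  rw [smul_join σ hp.symm, smul_smul_self_point hσ]
  exact eq_join hp.symm (right_mem_join _ _) (left_mem_join _ _)

theorem meet_fixed_of_moved {l : L} (hl : σ • l ≠ l) :
    σ • (meet l (σ • l) : P) = meet l (σ • l) := by
  rw [smul_meet σ hl.symm, ← mul_smul, hσ, one_smul]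
  exact eq_meet hl.symm (meet_mem_right _ _) (meet_mem_left _ _)

include hσ1

theorem exists_fixed_on_line (l : L) : ∃ p : P, p ∈ l ∧ σ • p = p := by
  by_cases hl : σ • l = l
  · by_contra hcon
    push Not at hcon
    by_cases hall : ∀ y : P, y ∉ l → σ • y = y
    · obtain ⟨x, hx, -⟩ := exists_point_on_ne (P := P) l (meet l l)
      obtain ⟨m, hxm, hml⟩ : ∃ m : L, x ∈ m ∧ m ≠ l := by
        obtain ⟨y, hy⟩ := Nondegenerate.exists_point (P := P) l
        exact ⟨join x y, left_mem_join x y, fun (e : (join x y : L) = l) => hy (e ▸ right_mem_join x y)⟩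
      obtain ⟨u, hu, hux⟩ := exists_point_on_ne m x
      obtain ⟨w, hw, hwx, hwu⟩ := exists_point_on_ne₂ m x u
      have hul : u ∉ l := fun e => hux (point_eq hml hu e hxm hx)
      have hwl : w ∉ l := fun e => hwx (point_eq hml hw e hxm hx)
      exact hcon x hx (point_fixed hml hxm hx
        (line_fixed hwu hw hu (hall w hwl) (hall u hul)) hl)
    · push Not at hall
      obtain ⟨y, hy, hy'⟩ := hall
      exact hcon _ (meet_mem_right (join y (σ • y)) l)
        (point_fixed (fun (e : (join y (σ • y) : L) = l) => hy (e ▸ left_mem_join y (σ • y))) (meet_mem_left _ _)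
          (meet_mem_right _ _) (join_fixed_of_moved hσ hy') hl)
  · exact ⟨meet l (σ • l), meet_mem_left _ _, meet_fixed_of_moved hσ hl⟩

theorem exists_axis_of_not_quad (hq : ¬ Quad (Subgroup.zpowers σ)) :
    ∃ a : L, IsAxis σ a := by
  obtain ⟨a, c, hall⟩ := exists_line_point_of_not_quad hq
  refine ⟨a, fun x hx => ?_⟩
  obtain ⟨m, hxm, hma, hcm⟩ : ∃ m : L, x ∈ m ∧ m ≠ a ∧ (c ∈ m → c = x) := by
    by_cases hcx : c = x
    · obtain ⟨y, hy⟩ := Nondegenerate.exists_point (P := P) a
      exact ⟨join x y, left_mem_join x y, fun e => hy (e ▸ right_mem_join x y), fun _ => hcx⟩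
    obtain ⟨y, hya, hyj⟩ := exists_point_not_mem₂ (P := P) a (join x c : L)
    refine ⟨join x y, left_mem_join x y, fun e => hya (e ▸ right_mem_join x y), fun hc => ?_⟩
    by_contra _
    exact hyj (line_eq (Ne.symm hcx) (left_mem_join x y) hc (left_mem_join x c) (right_mem_join x c)
      ▸ right_mem_join x y)
  obtain ⟨z, hzm, hz⟩ := exists_fixed_on_line hσ hσ1 m
  rcases hall z (mem_fixP_zpowers.2 hz) with e | e
  · rwa [point_eq hma hxm hx hzm e]
  · rw [← hcm (e ▸ hzm), ← e]; exact hz

end Involution

/-- The order of the fixed subplane. -/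
noncomputable def subOrder (hq : Quad S) : ℕ := @order (SubP S) (SubL S) _ (subPlane hq)

theorem ncard_fix_line (hq : Quad S) {l : L} (hl : l ∈ fixL S) :
    {x : P | x ∈ fixP S ∧ x ∈ l}.ncard = subOrder hq + 1 := by
  letI := subPlane hq
  have h := ncard_pts (P := SubP S) (L := SubL S) (show SubL S from ⟨l, hl⟩)
  rw [subOrder, ← h, ← Nat.card_coe_set_eq, ← Nat.card_coe_set_eq]
  exact Nat.card_congr
    { toFun := fun x => ⟨⟨x.1, x.2.1⟩, x.2.2⟩
      invFun := fun x => ⟨x.1.1, x.1.2, x.2⟩
      left_inv := fun _ => rfl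
      right_inv := fun _ => rfl }

theorem ncard_fix_point (hq : Quad S) {p : P} (hp : p ∈ fixP S) :
    {l : L | l ∈ fixL S ∧ p ∈ l}.ncard = subOrder hq + 1 := by
  letI := subPlane hq
  have h := ncard_lns (P := SubP S) (L := SubL S) (show SubP S from ⟨p, hp⟩)
  rw [subOrder, ← h, ← Nat.card_coe_set_eq, ← Nat.card_coe_set_eq]
  exact Nat.card_congr
    { toFun := fun x => ⟨⟨x.1, x.2.1⟩, x.2.2⟩
      invFun := fun x => ⟨x.1.1, x.1.2, x.2⟩
      left_inv := fun _ => rfl
      right_inv := fun _ => rfl }

theorem two_le_subOrder (hq : Quad S) : 2 ≤ subOrder hq := by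
  letI := subPlane hq
  exact two_le_order (P := SubP S) (L := SubL S)

theorem natCard_fixP (hq : Quad S) :
    Nat.card (fixP S) = subOrder hq ^ 2 + subOrder hq + 1 := by
  letI := subPlane hq
  exact natCard_points (P := SubP S) (L := SubL S)

/-- Baer: an involution fixing a quadrangle fixes a subplane whose order is the square root. -/
theorem baer {σ : Coll P L} (hσ : σ * σ = 1) (hσ1 : σ ≠ 1)
    (hq : Quad (Subgroup.zpowers σ)) : order P L = subOrder hq ^ 2 := by
  classical
  have := Fintype.ofFinite P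
  have := Fintype.ofFinite L
  set m := subOrder hq with hm
  set n := order P L with hn
  set A := Finset.univ.filter fun l : L => σ • l = l with hA
  set B := Finset.univ.filter fun p : P => σ • p = p with hB
  have hdual : Nat.card (fixL (Subgroup.zpowers σ)) = Nat.card (fixP (Subgroup.zpowers σ)) := by
    letI := subPlane hq
    have := Fintype.ofFinite (SubP (Subgroup.zpowers σ))
    have := Fintype.ofFinite (SubL (Subgroup.zpowers σ))
    exact (Nat.card_eq_fintype_card (α := SubL (Subgroup.zpowers σ))).trans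
      ((card_points_eq_card_lines (SubP (Subgroup.zpowers σ)) (SubL (Subgroup.zpowers σ))).symm.trans
        (Nat.card_eq_fintype_card (α := SubP (Subgroup.zpowers σ))).symm)
  have hBcard : B.card = m ^ 2 + m + 1 := by
    rw [← natCard_fixP hq, Nat.card_coe_set_eq, Set.ncard_eq_toFinset_card']
    congr 1; ext; simp [hB, mem_fixP_zpowers]
  have hAcard : A.card = m ^ 2 + m + 1 := by
    rw [← natCard_fixP hq, ← hdual, Nat.card_coe_set_eq, Set.ncard_eq_toFinset_card']
    congr 1; ext; simp [hA, mem_fixL_zpowers]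
  -- points moved on each fixed line
  have hper : ∀ l ∈ A, (Finset.univ.filter fun p : P => p ∈ l ∧ σ • p ≠ p).card + m = n := by
    intro l hl
    have hl' : l ∈ fixL (Subgroup.zpowers σ) := mem_fixL_zpowers.2 (Finset.mem_filter.1 hl).2
    have h1 : (Finset.univ.filter fun p : P => p ∈ l ∧ σ • p = p).card = m + 1 := by
      rw [hm, ← ncard_fix_line hq hl', Set.ncard_eq_toFinset_card']
      congr 1; ext; simp [mem_fixP_zpowers, and_comm]
    have h2 : (Finset.univ.filter fun p : P => p ∈ l).card = n + 1 := by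
      rw [hn, ← ncard_pts (P := P) l, pts, Set.ncard_eq_toFinset_card']
      congr 1; ext; simp
    have h3 := Finset.card_filter_add_card_filter_not (fun p : P => σ • p = p)
      (s := Finset.univ.filter fun p : P => p ∈ l)
    rw [Finset.filter_filter, Finset.filter_filter, h1, h2] at h3
    simp only [ne_eq]
    omega
  have hpart : (Finset.univ.filter fun p : P => σ • p ≠ p).card =
      ∑ l ∈ A, (Finset.univ.filter fun p : P => p ∈ l ∧ σ • p ≠ p).card := by
    rw [← Finset.card_biUnion]
    · congr 1
      ext p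
      simp only [Finset.mem_filter, Finset.mem_univ, true_and, Finset.mem_biUnion, hA]
      exact ⟨fun h => ⟨join p (σ • p), join_fixed_of_moved hσ h, left_mem_join _ _, h⟩,
        fun ⟨_, _, _, h⟩ => h⟩
    · intro l hl l' hl' hne
      rw [Function.onFun, Finset.disjoint_left]
      intro p hp hp'
      simp only [Finset.mem_filter, Finset.mem_univ, true_and, Finset.mem_coe, hA] at hp hp' hl hl'
      exact hp.2 (point_fixed hne hp.1 hp'.1 hl hl')
  have htot := Finset.card_filter_add_card_filter_not (fun p : P => σ • p = p)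
    (s := (Finset.univ : Finset P))
  rw [← hB, hBcard, Finset.card_univ, ← Nat.card_eq_fintype_card,
    natCard_points (P := P) (L := L), ← hn] at htot
  obtain ⟨k, hk⟩ : ∃ k, n = k + m := by
    obtain ⟨l, hl⟩ : A.Nonempty := Finset.card_pos.1 (by omega)
    exact ⟨_, (hper l hl).symm⟩
  rw [Finset.sum_congr rfl (fun l hl => show _ = k by have := hper l hl; omega),
    Finset.sum_const, smul_eq_mul, hAcard] at hpart
  simp only [ne_eq] at hpart htot
  rw [hpart] at htot
  have hk0 : k ≠ 0 := by
    rintro rfl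
    refine hσ1 (eq_one_of_points fun p => ?_)
    by_contra hp
    have : 0 < (Finset.univ.filter fun p : P => ¬ σ • p = p).card :=
      Finset.card_pos.2 ⟨p, Finset.mem_filter.2 ⟨Finset.mem_univ _, hp⟩⟩
    simp at hpart
    simp [hpart] at this
  rw [hk] at htot ⊢
  have e1 : k * (k + m) = k * m ^ 2 := by nlinarith
  exact Nat.eq_of_mul_eq_mul_left (Nat.pos_of_ne_zero hk0) e1

end Cfsg.Agent.H27.OW
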