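import Mathlib
import Cfsg.Agent.H27.OW.Dual

/-!
# Two-transitive collineation groups: transitivity consequences
-/

set_option autoImplicit false
set_option linter.unusedSectionVars false

namespace Cfsg.Agent.H27.OW

open Configuration Configuration.ProjectivePlane

/-- The collineations are two-transitive on points. -/
def TwoTrans (P L : Type*) [Membership P L] : Prop :=
  ∀ p q p' q' : P, p ≠ q → p' ≠ q' → ∃ g : Coll P L, g • p = p' ∧ g • q = q'

variable {P L : Type*} [Membership P L] [ProjectivePlane P L] [Finite P] [Finite L]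

/-- If a subgroup has at most two orbits on points, an invariant nonconstant property of lines
describes its orbits on lines. -/
theorem two_orbits (H : Subgroup (Coll P L)) (x y : P)
    (hxy : ∀ z : P, ∃ h ∈ H, h • x = z ∨ h • y = z) (f : L → Prop)
    (hf : ∀ h ∈ H, ∀ l : L, f (h • l) ↔ f l) (h1 : ∃ l, f l) (h0 : ∃ l, ¬ f l)
    {l m : L} (hlm : f l ↔ f m) : ∃ h ∈ H, h • l = m := by
  classical
  let F : MulAction.orbitRel.Quotient H L → Prop :=
    Quotient.lift f fun a b hab => by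
      obtain ⟨h, hh⟩ := hab
      exact propext (hh ▸ hf h h.2 b)
  have hFs : Function.Surjective F := by
    intro b
    by_cases hb : b
    · exact ⟨⟦h1.choose⟧, propext ⟨fun _ => hb, fun _ => h1.choose_spec⟩⟩
    · exact ⟨⟦h0.choose⟧, propext ⟨fun e => absurd e h0.choose_spec, fun e => absurd e hb⟩⟩
  have hP : Nat.card (MulAction.orbitRel.Quotient H P) ≤ Nat.card Bool := by
    refine Nat.card_le_card_of_surjective
      (fun b : Bool => (Quotient.mk'' (if b then x else y) : MulAction.orbitRel.Quotient H P)) ?_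
    intro q
    induction q using Quotient.inductionOn' with
    | h z =>
      obtain ⟨h, hh, e | e⟩ := hxy z
      · exact ⟨true, (Quotient.sound' (MulAction.orbitRel_apply.2 ⟨⟨h, hh⟩, e⟩)).symm⟩
      · exact ⟨false, (Quotient.sound' (MulAction.orbitRel_apply.2 ⟨⟨h, hh⟩, e⟩)).symm⟩
  have hB : Nat.card (MulAction.orbitRel.Quotient H L) ≤ Nat.card Prop := by
    rw [← card_orbits_eq, Nat.card_congr Equiv.propEquivBool]; exact hP
  have hbij := Function.Surjective.bijective_of_nat_card_le hFs hB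
  have he : (Quotient.mk'' m : MulAction.orbitRel.Quotient H L) = Quotient.mk'' l :=
    hbij.injective (propext hlm.symm)
  obtain ⟨h, hh⟩ := Quotient.exact' he
  exact ⟨h, h.2, hh⟩

variable (h2 : TwoTrans P L)

include h2

theorem TwoTrans.point (p p' : P) : ∃ g : Coll P L, g • p = p' := by
  have : Nontrivial P := by
    obtain ⟨l, hl⟩ := Nondegenerate.exists_line (L := L) p
    obtain ⟨q, hq, -⟩ := exists_point_on_ne l p
    exact ⟨⟨p, q, fun e => hl (e ▸ hq)⟩⟩
  obtain ⟨q, hq⟩ := exists_ne p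
  obtain ⟨q', hq'⟩ := exists_ne p'
  obtain ⟨g, hg, -⟩ := h2 p q p' q' hq.symm hq'.symm
  exact ⟨g, hg⟩

theorem TwoTrans.flag {p p' : P} {l l' : L} (hp : p ∈ l) (hp' : p' ∈ l') :
    ∃ g : Coll P L, g • p = p' ∧ g • l = l' := by
  obtain ⟨q, hq, hqp⟩ := exists_point_on_ne l p
  obtain ⟨q', hq', hqp'⟩ := exists_point_on_ne l' p'
  obtain ⟨g, hg, hg'⟩ := h2 p q p' q' hqp.symm hqp'.symm
  refine ⟨g, hg, line_eq hqp'.symm ?_ ?_ hp' hq'⟩
  · exact hg ▸ (smul_mem_smul g p l).2 hp
  · exact hg' ▸ (smul_mem_smul g q l).2 hq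

theorem TwoTrans.line (l l' : L) : ∃ g : Coll P L, g • l = l' := by
  obtain ⟨p, hp, -⟩ := exists_point_on_ne (P := P) l (meet l l)
  obtain ⟨p', hp', -⟩ := exists_point_on_ne (P := P) l' (meet l' l')
  obtain ⟨g, -, hg⟩ := h2.flag hp hp'
  exact ⟨g, hg⟩

theorem TwoTrans.antiflag {p p' : P} {l l' : L} (hp : p ∉ l) (hp' : p' ∉ l') :
    ∃ g : Coll P L, g • p = p' ∧ g • l = l' := by
  obtain ⟨g, hg⟩ := h2.point p p'
  have hgl : p' ∉ g • l := fun e => hp ((smul_mem_smul g p l).1 (hg ▸ e))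
  obtain ⟨q, hq, -⟩ := exists_point_on_ne (P := P) l' (meet l' l')
  have hqp : p' ≠ q := fun e => hp' (e ▸ hq)
  obtain ⟨h, hh, hh'⟩ := two_orbits (MulAction.stabilizer (Coll P L) p') p' q
    (fun z => by
      by_cases hz : z = p'
      · exact ⟨1, one_mem _, Or.inl (by rw [one_smul, hz])⟩
      · obtain ⟨k, hk, hk'⟩ := h2 p' q p' z hqp (Ne.symm hz)
        exact ⟨k, hk, Or.inr hk'⟩)
    (fun m => p' ∈ m)
    (fun h hh m => by
      conv_lhs => rw [← (MulAction.mem_stabilizer_iff.1 hh)]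
      exact smul_mem_smul h p' m)
    (exists_mem_line p') ⟨l', hp'⟩
    (l := g • l) (m := l') ⟨fun e => absurd e hgl, fun e => absurd e hp'⟩
  exact ⟨h * g, by rw [mul_smul, hg, MulAction.mem_stabilizer_iff.1 hh], by rw [mul_smul, hh']⟩

theorem TwoTrans.lines {l m l' m' : L} (hlm : l ≠ m) (hlm' : l' ≠ m') :
    ∃ g : Coll P L, g • l = l' ∧ g • m = m' := by
  obtain ⟨g, hg⟩ := h2.line l l'
  obtain ⟨a, ha, -⟩ := exists_point_on_ne (P := P) l' (meet l' l')
  obtain ⟨b, hb⟩ := Nondegenerate.exists_point (P := P) l'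
  obtain ⟨h, hh, hh'⟩ := two_orbits (MulAction.stabilizer (Coll P L) l') a b
    (fun z => by
      by_cases hz : z ∈ l'
      · obtain ⟨k, hk, hk'⟩ := h2.flag ha hz
        exact ⟨k, hk', Or.inl hk⟩
      · obtain ⟨k, hk, hk'⟩ := h2.antiflag hb hz
        exact ⟨k, hk', Or.inr hk⟩)
    (fun z => z = l')
    (fun h hh z => by
      conv_lhs => rw [← (MulAction.mem_stabilizer_iff.1 hh)]
      exact smul_left_cancel_iff h)
    ⟨l', rfl⟩ ⟨m', fun e => hlm' e.symm⟩
    (l := g • m) (m := m')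
    ⟨fun e => absurd (smul_left_cancel g (e.trans hg.symm)) hlm.symm,
      fun e => absurd e hlm'.symm⟩
  exact ⟨h * g, by rw [mul_smul, hg, MulAction.mem_stabilizer_iff.1 hh], by rw [mul_smul, hh']⟩

theorem TwoTrans.dual : TwoTrans (Dual L) (Dual P) := by
  intro l m l' m' hlm hlm'
  obtain ⟨g, hg, hg'⟩ := h2.lines (P := P) (l := l) (m := m) (l' := l') (m' := m') hlm hlm'
  exact ⟨dualColl P L g, hg, hg'⟩

omit h2

end Cfsg.Agent.H27.OW
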