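import Mathlib
import Cfsg.Agent.H27.OW.GroupAux
import Cfsg.Agent.H27.OW.Involution
import Cfsg.Agent.H27.OW.Transitive
import Cfsg.Agent.H27.OW.Homology2

/-!
# Maximal two-groups fixing a quadrangle
-/

set_option autoImplicit false
set_option linter.unusedSectionVars false
set_option linter.style.haveILetI false

universe u v

namespace Cfsg.Agent.H27.OW

open Configuration Configuration.ProjectivePlane

section Chain

variable {P : Type u} {L : Type v} [Membership P L] [ProjectivePlane P L] [Finite P] [Finite L]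

theorem fixP_anti {S T : Subgroup (Coll P L)} (h : S ≤ T) : fixP T ⊆ fixP S :=
  fun _ hp g hg => hp g (h hg)

theorem fixL_anti {S T : Subgroup (Coll P L)} (h : S ≤ T) : fixL T ⊆ fixL S :=
  fun _ hp g hg => hp g (h hg)

theorem Quad.mono {S T : Subgroup (Coll P L)} (h : S ≤ T) (hq : Quad T) : Quad S := by
  obtain ⟨l, m, a, b, c, d, hlm, ha, hb, hc, hd, r⟩ := hq
  exact ⟨l, m, a, b, c, d, hlm, fixP_anti h ha, fixP_anti h hb, fixP_anti h hc, fixP_anti h hd, r⟩

theorem sq_add_succ_inj {a b : ℕ} (h : a ^ 2 + a + 1 = b ^ 2 + b + 1) : a = b := by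
  rcases Nat.lt_trichotomy a b with h1 | h1 | h1
  · nlinarith
  · exact h1
  · nlinarith

/-- Subplane orders are determined by the fixed point sets. -/
theorem subOrder_congr {S : Subgroup (Coll P L)} (hq : Quad S) {P' : Type u} {L' : Type v}
    [Membership P' L'] [ProjectivePlane P' L'] [Finite P'] [Finite L']
    {S' : Subgroup (Coll P' L')} (hq' : Quad S') (h : Nat.card (fixP S) = Nat.card (fixP S')) :
    subOrder hq = subOrder hq' :=
  sq_add_succ_inj (by rw [← natCard_fixP hq, ← natCard_fixP hq', h])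

end Chain

theorem order_eq_pow_aux : ∀ (N : ℕ) {P : Type u} {L : Type v} [Membership P L]
    [ProjectivePlane P L] [Finite P] [Finite L] (S : Subgroup (Coll P L)) (hq : Quad S),
    IsPGroup 2 S → Nat.card S = N → ∃ k, order P L = subOrder hq ^ (2 ^ k) := by
  intro N
  induction N using Nat.strong_induction_on with
  | _ N ih =>
    intro P L _ _ _ _ S hq hS hN
    have : Fact (Nat.Prime 2) := ⟨Nat.prime_two⟩
    by_cases hbot : S = ⊥
    · refine ⟨0, ?_⟩
      rw [pow_zero, pow_one]
      refine sq_add_succ_inj ?_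
      rw [← natCard_fixP hq, ← natCard_points (P := P) (L := L)]
      exact (Nat.card_congr (Equiv.subtypeUnivEquiv fun x g hg => by
        rw [hbot, Subgroup.mem_bot] at hg; rw [hg, one_smul])).symm
    have : Nontrivial S := Subgroup.nontrivial_iff_ne_bot S |>.2 hbot
    have hc := hS.center_nontrivial
    obtain ⟨j, hj⟩ := (hS.to_subgroup (Subgroup.center S)).exists_card_eq
    have hj0 : j ≠ 0 := by
      rintro rfl
      have h1 : Nat.card (Subgroup.center S) ≠ 1 :=
        (Finite.one_lt_card_iff_nontrivial.2 hc).ne'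
      exact h1 (by simpa using hj)
    obtain ⟨z, hz⟩ := exists_prime_orderOf_dvd_card' 2 (hj ▸ dvd_pow_self 2 hj0)
    set g : Coll P L := ((z : S) : Coll P L) with hg
    have hg2 : orderOf g = 2 := by rw [hg, Subgroup.orderOf_coe, Subgroup.orderOf_coe, hz]
    have hgg : g * g = 1 := by rw [← pow_two, ← hg2, pow_orderOf_eq_one]
    have hg1 : g ≠ 1 := fun e => by rw [e, orderOf_one] at hg2; omega
    set Z : Subgroup (Coll P L) := Subgroup.zpowers g with hZ
    have hZS : Z ≤ S := Subgroup.zpowers_le.2 (z : S).2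
    have hqZ : Quad Z := hq.mono hZS
    have hbaer := baer hgg hg1 hqZ
    have hcomm : ∀ s ∈ S, s * g = g * s := fun s hs =>
      congrArg Subtype.val (Subgroup.mem_center_iff.1 z.2 ⟨s, hs⟩)
    have hle : S ≤ nz Z := by
      intro s hs
      refine Subgroup.mem_normalizer_iff.2 fun x => ?_
      have hx : ∀ k : ℤ, s * g ^ k * s⁻¹ = g ^ k := fun k => by
        rw [(Commute.zpow_right (show Commute s g from hcomm s hs) k).eq, mul_inv_cancel_right]
      rw [hZ]
      constructor
      · intro hxZ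
        obtain ⟨k, rfl⟩ := Subgroup.mem_zpowers_iff.1 hxZ
        rw [hx]; exact hxZ
      · intro hxZ
        obtain ⟨k, hk⟩ := Subgroup.mem_zpowers_iff.1 hxZ
        have hxk : x = g ^ k := by
          have h3 := hk.symm.trans (hx k).symm
          exact mul_left_cancel (mul_right_cancel h3)
        exact hxk ▸ Subgroup.zpow_mem_zpowers g k
    letI := subPlane hqZ
    set f : S →* Coll (SubP Z) (SubL Z) := (res Z).comp (Subgroup.inclusion hle) with hf
    have hfix : ∀ p : SubP Z, p ∈ fixP f.range ↔ p.1 ∈ fixP S := by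
      intro p
      refine ⟨fun h s hs => ?_, fun h x hx => ?_⟩
      · exact congrArg Subtype.val (h _ ⟨⟨s, hs⟩, rfl⟩)
      · obtain ⟨s, rfl⟩ := hx
        exact Subtype.ext (h s s.2)
    have hq' : Quad f.range := by
      obtain ⟨l, m, a, b, c, d, hlm, ha, hb, hc', hd, hal, hbl, hab, ham, hbm, hcm, hdm, hcd, hcl,
        hdl⟩ := hq
      have hl : l ∈ fixL Z := fixL_anti hZS (line_mem_fixL hab ha hb hal hbl)
      have hm : m ∈ fixL Z := fixL_anti hZS (line_mem_fixL hcd hc' hd hcm hdm)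
      refine ⟨⟨l, hl⟩, ⟨m, hm⟩, ⟨a, fixP_anti hZS ha⟩, ⟨b, fixP_anti hZS hb⟩,
        ⟨c, fixP_anti hZS hc'⟩, ⟨d, fixP_anti hZS hd⟩, fun e => hlm (congrArg Subtype.val e),
        (hfix _).2 ha, (hfix _).2 hb, (hfix _).2 hc', (hfix _).2 hd, hal, hbl,
        fun e => hab (congrArg Subtype.val e), ham, hbm, hcm, hdm,
        fun e => hcd (congrArg Subtype.val e), hcl, hdl⟩
    have hlt : Nat.card f.range < N := by
      rw [← hN]
      refine lt_of_le_of_ne (Nat.le_of_dvd Nat.card_pos (Subgroup.card_range_dvd f)) fun e => ?_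
      have hbij := Function.Surjective.bijective_of_nat_card_le f.rangeRestrict_surjective e.ge
      have h1 : f (z : S) = 1 := by
        refine eq_one_of_points fun p => Subtype.ext ?_
        exact p.2 g (Subgroup.mem_zpowers g)
      have h2 : (z : S) = 1 := hbij.injective (by
        rw [map_one]; exact Subtype.ext h1)
      exact hg1 (by rw [hg, h2]; rfl)
    obtain ⟨k, hk⟩ := ih _ hlt f.range hq' ((hS.of_surjective f.rangeRestrict f.rangeRestrict_surjective)) rfl
    refine ⟨k + 1, ?_⟩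
    have hsub : subOrder hq = subOrder hq' := by
      refine subOrder_congr hq hq' (Nat.card_congr ?_)
      exact
        { toFun := fun x => ⟨⟨x.1, fixP_anti hZS x.2⟩, (hfix _).2 x.2⟩
          invFun := fun x => ⟨x.1.1, (hfix _).1 x.2⟩
          left_inv := fun _ => rfl
          right_inv := fun _ => rfl }
    have hord : order P L = order (SubP Z) (SubL Z) ^ 2 := hbaer
    rw [hord, hk, hsub, ← pow_mul, ← pow_succ]

variable {P : Type u} {L : Type v} [Membership P L] [ProjectivePlane P L] [Finite P] [Finite L]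

theorem order_eq_pow {S : Subgroup (Coll P L)} (hS : IsPGroup 2 S) (hq : Quad S) :
    ∃ k, order P L = subOrder hq ^ (2 ^ k) := order_eq_pow_aux _ S hq hS rfl

/-- A maximal two-group fixing a quadrangle. -/
structure MaxQuad (S : Subgroup (Coll P L)) : Prop where
  pgroup : IsPGroup 2 S
  quad : Quad S
  max : ∀ W : Subgroup (Coll P L), S < W → IsPGroup 2 W → ¬ Quad W

theorem exists_maxQuad {W : Subgroup (Coll P L)} (hW : IsPGroup 2 W) (hq : Quad W) :
    ∃ S : Subgroup (Coll P L), MaxQuad S := by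
  obtain ⟨S, hS, hmax⟩ := ({S : Subgroup (Coll P L) | IsPGroup 2 S ∧ Quad S}).toFinite.exists_maximalFor
    id _ ⟨W, hW, hq⟩
  exact ⟨S, hS.1, hS.2, fun V hV hV2 hVq => hV.not_ge (hmax ⟨hV2, hVq⟩ hV.le)⟩

theorem MaxQuad.dual {S : Subgroup (Coll P L)} (hS : MaxQuad S) :
    MaxQuad (P := Dual L) (L := Dual P) (S.map (dualColl P L).toMonoidHom) := by
  refine ⟨hS.pgroup.map _, hS.quad.dual, fun W hW hW2 hWq => ?_⟩
  refine hS.max (W.map (dualColl P L).symm.toMonoidHom) ?_ (hW2.map _) hWq.dual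
  refine lt_of_le_of_ne (fun s hs => ⟨dualColl P L s, hW.le ⟨s, hs, rfl⟩, rfl⟩) fun e => ?_
  refine hW.ne (le_antisymm hW.le fun w hw => ?_)
  exact ⟨(dualColl P L).symm w, e.symm ▸ ⟨w, hw, rfl⟩, rfl⟩

/-- Two fixed points are fixed by an element inducing an involution. -/
theorem MaxQuad.pair (h2 : TwoTrans P L) {S : Subgroup (Coll P L)} (hS : MaxQuad S) {u v : P}
    (hu : u ∈ fixP S) (hv : v ∈ fixP S) (huv : u ≠ v) :
    ∃ g : nz S, res S g ≠ 1 ∧ res S g * res S g = 1 ∧ (g : Coll P L) • u = u ∧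
      (g : Coll P L) • v = v := by
  have : Fact (Nat.Prime 2) := ⟨Nat.prime_two⟩
  set H : Subgroup (Coll P L) :=
    MulAction.stabilizer (Coll P L) u ⊓ MulAction.stabilizer (Coll P L) v with hH
  obtain ⟨T, hST, hTH, hT2, hTmax⟩ :=
    exists_max_ge hS.pgroup (show S ≤ H from fun s hs => ⟨hu s hs, hv s hs⟩)
  have hTq : ¬ Quad T := by
    intro hq
    obtain ⟨w, hw1, hw2⟩ := h2 u v v u huv huv.symm
    have hwH : ∀ t ∈ T, w * t * w⁻¹ ∈ H := by
      intro t ht
      have e1 : w⁻¹ • u = v := inv_smul_eq_iff.2 hw2.symm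
      have e2 : w⁻¹ • v = u := inv_smul_eq_iff.2 hw1.symm
      refine Subgroup.mem_inf.2 ⟨?_, ?_⟩ <;> rw [MulAction.mem_stabilizer_iff, mul_smul, mul_smul]
      · rw [e1, show t • v = v from (hTH ht).2, hw2]
      · rw [e2, show t • u = u from (hTH ht).1, hw1]
    obtain ⟨h, hh, hhw⟩ := exists_mem_normalizer hT2 hTH hTmax w hwH
    have h3 : (h * w) • u = v := by rw [mul_smul, hw1]; exact hh.2
    have h4 : (h * w) • v = u := by rw [mul_smul, hw2]; exact hh.1
    obtain ⟨i, k, hyk, hyu⟩ := exists_two_part_swap h3 h4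
    set y : nz T := (⟨h * w, hhw⟩ : nz T) ^ i with hy
    have hres : res T y ≠ 1 := by
      intro e
      have h5 := congrArg Subtype.val
        (show res T y • (show SubP T from ⟨u, fun t ht => (hTH ht).1⟩) =
          (show SubP T from ⟨u, fun t ht => (hTH ht).1⟩) by rw [e, one_smul])
      exact huv (h5.symm.trans hyu)
    have hyp : res T y ^ (2 ^ k) = 1 := by
      rw [← map_pow, show y ^ (2 ^ k) = 1 from Subtype.ext hyk, map_one]
    obtain ⟨j, hj1, hj2⟩ := exists_involution_pow (res T y) hres hyp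
    rw [← map_pow] at hj1 hj2
    letI := subPlane hq
    have hord : orderOf (res T (y ^ j)) = 2 ^ 1 := by
      rw [pow_one]; exact orderOf_eq_prime (by rw [pow_two, hj2]) hj1
    obtain ⟨W, hTW, hW2, hWfix, -⟩ := exists_larger hT2 (y ^ j) hj1 ⟨1, hord⟩
    obtain ⟨l₀, hl₀⟩ := exists_mem_line (L := SubL T)
      (show SubP T from ⟨u, fun t ht => (hTH ht).1⟩)
    obtain ⟨p, -, hp⟩ := exists_fixed_on_line hj2 hj1 l₀
    obtain ⟨m, hm⟩ := Nondegenerate.exists_line (L := SubL T) p
    obtain ⟨p', hp'm, hp'⟩ := exists_fixed_on_line hj2 hj1 m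
    have hpp : p.1 ≠ p'.1 := fun e => hm (by rwa [Subtype.ext e])
    obtain ⟨g, hg1, hg2⟩ := h2 p.1 p'.1 u v hpp huv
    have hle : W.map (MulAut.conj g).toMonoidHom ≤ H := by
      rintro _ ⟨x, hx, rfl⟩
      refine Subgroup.mem_inf.2 ⟨?_, ?_⟩ <;>
        rw [MulAction.mem_stabilizer_iff, MulEquiv.coe_toMonoidHom,
          MulAut.conj_apply, mul_smul, mul_smul]
      · rw [← hg1, inv_smul_smul, hWfix p hp x hx]
      · rw [← hg2, inv_smul_smul, hWfix p' hp' x hx]
    have h6 := hTmax _ hle (hW2.map _)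
    rw [← Nat.card_congr (Subgroup.equivMapOfInjective W _ (MulAut.conj g).injective).toEquiv] at h6
    exact hTW.ne (Subgroup.eq_of_le_of_card_ge hTW.le h6)
  have hSTlt : S < T := lt_of_le_of_ne hST fun e => hTq (e ▸ hS.quad)
  have := hT2.isNilpotent
  have hlt : (S.subgroupOf T) < ⊤ := by
    rw [lt_top_iff_ne_top, Ne, Subgroup.subgroupOf_eq_top]
    exact fun e => hSTlt.not_ge e
  obtain ⟨x, hxn, hxS⟩ := SetLike.exists_of_lt (normalizerCondition_of_isNilpotent _ hlt)
  rw [Subgroup.mem_subgroupOf] at hxS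
  have hxN : (x : Coll P L) ∈ nz S := by
    refine Subgroup.mem_normalizer_iff.2 fun t => ?_
    have hx' := Subgroup.mem_normalizer_iff.1 hxn
    constructor
    · intro ht
      have := (hx' ⟨t, hST ht⟩).1 (by rw [Subgroup.mem_subgroupOf]; exact ht)
      rw [Subgroup.mem_subgroupOf] at this
      exact this
    · intro ht
      have h7 : t ∈ T := by
        have := T.mul_mem (T.mul_mem (T.inv_mem x.2) (hST ht)) x.2
        rwa [show (x : Coll P L)⁻¹ * ((x : Coll P L) * t * (x : Coll P L)⁻¹) * x = t by group] at this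
      have := (hx' ⟨t, h7⟩).2 (by rw [Subgroup.mem_subgroupOf]; exact ht)
      rw [Subgroup.mem_subgroupOf] at this
      exact this
  set y : nz S := ⟨x, hxN⟩ with hy
  have hres : res S y ≠ 1 := by
    intro e
    have hfix : ∀ p ∈ fixP S, (x : Coll P L) • p = p := fun p hp => congrArg Subtype.val
      (show res S y • (show SubP S from ⟨p, hp⟩) = ⟨p, hp⟩ by rw [e, one_smul])
    have hW2 : IsPGroup 2 (S ⊔ Subgroup.zpowers (x : Coll P L) : Subgroup (Coll P L)) :=
      hT2.to_le (sup_le hST (Subgroup.zpowers_le.2 x.2))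
    have hWq : Quad (S ⊔ Subgroup.zpowers (x : Coll P L)) := by
      obtain ⟨l, m, a, b, c, d, hlm, ha, hb, hc, hd, r⟩ := hS.quad
      have key : ∀ p ∈ fixP S, p ∈ fixP (S ⊔ Subgroup.zpowers (x : Coll P L)) := fun p hp w hw =>
        (sup_le (fun s hs => hp s hs) (Subgroup.zpowers_le.2 (hfix p hp)) :
          _ ≤ MulAction.stabilizer (Coll P L) p) hw
      exact ⟨l, m, a, b, c, d, hlm, key a ha, key b hb, key c hc, key d hd, r⟩
    exact hS.max _ (lt_of_le_of_ne le_sup_left fun e' => hxS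
      (e'.ge (Subgroup.mem_sup_right (Subgroup.mem_zpowers _)))) hW2 hWq
  obtain ⟨k, hk⟩ := hT2 x
  have hyp : res S y ^ (2 ^ k) = 1 := by
    rw [← map_pow, show y ^ (2 ^ k) = 1 from Subtype.ext (congrArg Subtype.val hk :), map_one]
  obtain ⟨j, hj1, hj2⟩ := exists_involution_pow (res S y) hres hyp
  rw [← map_pow] at hj1 hj2
  refine ⟨y ^ j, hj1, hj2, ?_, ?_⟩
  · exact (MulAction.stabilizer (Coll P L) u).pow_mem (hTH x.2).1 j
  · exact (MulAction.stabilizer (Coll P L) v).pow_mem (hTH x.2).2 j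

/-- The restriction to the fixed subplane satisfies the hypotheses on homologies. -/
theorem MaxQuad.homData (h2 : TwoTrans P L) (hn : Odd (order P L)) {S : Subgroup (Coll P L)}
    (hS : MaxQuad S) :
    letI := subPlane hS.quad
    HomData (P := SubP S) (L := SubL S) (res S).range := by
  letI := subPlane hS.quad
  have : Fact (Nat.Prime 2) := ⟨Nat.prime_two⟩
  refine ⟨?_, ?_, ?_, ?_⟩
  · obtain ⟨k, hk⟩ := order_eq_pow hS.pgroup hS.quad
    rw [hk] at hn
    exact (Nat.odd_pow_iff (by positivity)).1 hn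
  · rintro τ ⟨g, rfl⟩ h1 h3
    by_cases hq : Quad (Subgroup.zpowers (res S g))
    · exfalso
      obtain ⟨W, hW, hW2, hWp, -⟩ := exists_larger hS.pgroup g h1
        ⟨1, by rw [pow_one]; exact orderOf_eq_prime (by rw [pow_two, h3]) h1⟩
      refine hS.max W hW hW2 ?_
      obtain ⟨l, m, a, b, c, d, hlm, ha, hb, hc, hd, hal, hbl, hab, ham, hbm, hcm, hdm, hcd, hcl,
        hdl⟩ := hq
      exact ⟨l.1, m.1, a.1, b.1, c.1, d.1, fun e => hlm (Subtype.ext e),
        hWp a (mem_fixP_zpowers.1 ha), hWp b (mem_fixP_zpowers.1 hb), hWp c (mem_fixP_zpowers.1 hc),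
        hWp d (mem_fixP_zpowers.1 hd), hal, hbl, fun e => hab (Subtype.ext e), ham, hbm, hcm, hdm,
        fun e => hcd (Subtype.ext e), hcl, hdl⟩
    · obtain ⟨a, ha⟩ := exists_axis_of_not_quad h3 h1 hq
      obtain ⟨c, hc⟩ := ha.exists_centre
      exact ⟨c, a, ha, hc⟩
  · intro p q hpq
    obtain ⟨g, hg1, hg2, hgp, hgq⟩ := hS.pair h2 p.2 q.2 (fun e => hpq (Subtype.ext e))
    exact ⟨res S g, ⟨g, rfl⟩, hg1, hg2, Subtype.ext hgp, Subtype.ext hgq⟩
  · intro l m hlm
    obtain ⟨g, hg1, hg2, hgl, hgm⟩ := hS.dual.pair (P := Dual L) (L := Dual P) h2.dual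
      (u := l.1) (v := m.1) (by rintro _ ⟨s, hs, rfl⟩; exact l.2 s hs)
      (by rintro _ ⟨s, hs, rfl⟩; exact m.2 s hs) (fun e => hlm (Subtype.ext e))
    have hgn : (dualColl P L).symm (g : Coll (Dual L) (Dual P)) ∈ nz S := by
      refine Subgroup.mem_normalizer_iff.2 fun t => ?_
      have key : ∀ t' : Coll P L,
          dualColl P L t' ∈ S.map (dualColl P L).toMonoidHom ↔ t' ∈ S := fun t' =>
        ⟨fun ⟨s, hs, e⟩ => (dualColl P L).injective e ▸ hs, fun h => ⟨t', h, rfl⟩⟩
      have := Subgroup.mem_normalizer_iff.1 g.2 (dualColl P L t)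
      rw [key] at this
      rw [this, ← key (_ * t * _)]
      exact Iff.rfl
    set g' : nz S := ⟨_, hgn⟩ with hg'
    refine ⟨res S g', ⟨g', rfl⟩, fun e => hg1 ?_, ?_, Subtype.ext hgl, Subtype.ext hgm⟩
    · refine coll_ext (fun x => Subtype.ext ?_) fun x => Subtype.ext ?_
      · have h := congrArg Subtype.val (congrArg (fun k : Coll (SubP S) (SubL S) =>
          k • (show SubL S from ⟨x.1, fun s hs => x.2 _ ⟨s, hs, rfl⟩⟩)) e)
        exact h
      · have h := congrArg Subtype.val (congrArg (fun k : Coll (SubP S) (SubL S) =>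
          k • (show SubP S from ⟨x.1, fun s hs => x.2 _ ⟨s, hs, rfl⟩⟩)) e)
        exact h
    · refine coll_ext (fun x => Subtype.ext ?_) fun x => Subtype.ext ?_
      · have hx : x.1 ∈ fixL (P := Dual L) (L := Dual P) (S.map (dualColl P L).toMonoidHom) := by
          rintro _ ⟨s, hs, rfl⟩; exact x.2 s hs
        have := congrArg (fun k => k • (show SubL (P := Dual L) (L := Dual P)
          (S.map (dualColl P L).toMonoidHom) from ⟨x.1, hx⟩)) hg2
        have h := congrArg Subtype.val this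
        exact h
      · have hx : x.1 ∈ fixP (P := Dual L) (L := Dual P) (S.map (dualColl P L).toMonoidHom) := by
          rintro _ ⟨s, hs, rfl⟩; exact x.2 s hs
        have := congrArg (fun k => k • (show SubP (P := Dual L) (L := Dual P)
          (S.map (dualColl P L).toMonoidHom) from ⟨x.1, hx⟩)) hg2
        have h := congrArg Subtype.val this
        exact h

/-- With an odd order and a Baer involution the order is a prime power. -/
theorem primePower_of_quad (h2 : TwoTrans P L) (hn : Odd (order P L)) {W : Subgroup (Coll P L)}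
    (hW : IsPGroup 2 W) (hq : Quad W) : PrimePowerOrder P L := by
  obtain ⟨S, hS⟩ := exists_maxQuad hW hq
  letI := subPlane hS.quad
  obtain ⟨q, e, hqp, he⟩ := primePower_of_homData (hS.homData h2 hn)
  obtain ⟨k, hk⟩ := order_eq_pow hS.pgroup hS.quad
  exact ⟨q, e * 2 ^ k, hqp, by rw [hk, pow_mul, ← he]; rfl⟩

end Cfsg.Agent.H27.OW
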