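import Mathlib
import Cfsg.Agent.H27.OW.MaxQuad

/-!
# A two-transitive plane has a perspectivity
-/

set_option autoImplicit false
set_option linter.unusedSectionVars false
set_option linter.style.haveILetI false

namespace Cfsg.Agent.H27.OW

open Configuration Configuration.ProjectivePlane

variable {P L : Type*} [Membership P L] [ProjectivePlane P L] [Finite P] [Finite L]

theorem TwoTrans.exists_involution (h2 : TwoTrans P L) :
    ∃ σ : Coll P L, σ ≠ 1 ∧ σ * σ = 1 := by
  obtain ⟨p⟩ : Nonempty P := by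
    rcases isEmpty_or_nonempty P with hP | hP
    · exfalso
      have := natCard_points (P := P) (L := L)
      rw [Nat.card_of_isEmpty] at this
      omega
    · exact hP
  obtain ⟨l, hl⟩ := Nondegenerate.exists_line (L := L) p
  obtain ⟨q, hq, -⟩ := exists_point_on_ne l p
  have hpq : p ≠ q := fun e => hl (e ▸ hq)
  obtain ⟨w, hw1, hw2⟩ := h2 p q q p hpq hpq.symm
  obtain ⟨m, k, hk, hm⟩ := exists_two_part_swap hw1 hw2
  obtain ⟨j, hj1, hj2⟩ := exists_involution_pow (w ^ m)
    (fun e => hpq (by rwa [e, one_smul] at hm)) hk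
  exact ⟨_, hj1, hj2⟩

theorem orbit_off (h2 : TwoTrans P L) {x : P} {l : L} (hx : x ∉ l) :
    MulAction.orbit (MulAction.stabilizer (Coll P L) l) x = {z : P | z ∉ l} := by
  ext z
  constructor
  · rintro ⟨⟨g, hg⟩, rfl⟩ e
    refine hx ((smul_mem_smul g x l).1 ?_)
    rw [MulAction.mem_stabilizer_iff.1 hg]
    exact e
  · intro hz
    obtain ⟨g, hg, hg'⟩ := h2.antiflag hx hz
    exact ⟨⟨g, hg'⟩, hg⟩

/-- The stabiliser of an antiflag has index a multiple of the square of the order. -/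
theorem sq_dvd_of_antiflag (h2 : TwoTrans P L) {x : P} {l : L} (hx : x ∉ l) :
    order P L ^ 2 * Nat.card ↥(MulAction.stabilizer (Coll P L) l ⊓ MulAction.stabilizer (Coll P L) x)
      ∣ Nat.card (Coll P L) := by
  have h := ncard_orbit_mul_card (MulAction.stabilizer (Coll P L) l) x
  rw [orbit_off h2 hx, ncard_points_off] at h
  rw [h]
  exact Subgroup.card_subgroup_dvd_card _

/-- The stabiliser of two points has index a multiple of the order. -/
theorem order_dvd_of_pair (h2 : TwoTrans P L) {p x : P} (hpx : x ≠ p) :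
    order P L * Nat.card ↥(MulAction.stabilizer (Coll P L) p ⊓ MulAction.stabilizer (Coll P L) x)
      ∣ Nat.card (Coll P L) := by
  have h := ncard_orbit_mul_card (MulAction.stabilizer (Coll P L) p) x
  have ho : MulAction.orbit (MulAction.stabilizer (Coll P L) p) x = {p}ᶜ := by
    ext z
    constructor
    · rintro ⟨⟨g, hg⟩, rfl⟩ e
      exact hpx (smul_left_cancel g ((Set.mem_singleton_iff.1 e).trans
        (MulAction.mem_stabilizer_iff.1 hg).symm))
    · intro hz
      obtain ⟨g, hg, hg'⟩ := h2 p x p z hpx.symm (Ne.symm hz)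
      exact ⟨⟨g, hg⟩, hg'⟩
  rw [ho] at h
  have hc : ({p}ᶜ : Set P).ncard = order P L * (order P L + 1) := by
    have := Set.ncard_add_ncard_compl ({p} : Set P)
    rw [Set.ncard_singleton, natCard_points (P := P) (L := L)] at this
    rw [mul_add, mul_one, ← pow_two]
    omega
  rw [hc, mul_assoc] at h
  refine dvd_trans ⟨order P L + 1, ?_⟩ (Subgroup.card_subgroup_dvd_card (MulAction.stabilizer (Coll P L) p))
  rw [← h]; ring

theorem conj_le_stab {g : Coll P L} {p p' : P} (hp : g • p = p') {W : Subgroup (Coll P L)}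
    (hW : W ≤ MulAction.stabilizer (Coll P L) p) :
    W.map (MulAut.conj g).toMonoidHom ≤ MulAction.stabilizer (Coll P L) p' := by
  rintro _ ⟨w, hw, rfl⟩
  rw [MulAction.mem_stabilizer_iff, MulEquiv.coe_toMonoidHom, MulAut.conj_apply, mul_smul, mul_smul,
    ← hp, inv_smul_smul, MulAction.mem_stabilizer_iff.1 (hW hw)]

theorem conj_le_stab_line {g : Coll P L} {p p' : L} (hp : g • p = p') {W : Subgroup (Coll P L)}
    (hW : W ≤ MulAction.stabilizer (Coll P L) p) :
    W.map (MulAut.conj g).toMonoidHom ≤ MulAction.stabilizer (Coll P L) p' := by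
  rintro _ ⟨w, hw, rfl⟩
  rw [MulAction.mem_stabilizer_iff, MulEquiv.coe_toMonoidHom, MulAut.conj_apply, mul_smul, mul_smul,
    ← hp, inv_smul_smul, MulAction.mem_stabilizer_iff.1 (hW hw)]

/-- For even order some involution is a perspectivity. -/
theorem exists_axis_of_even (h2 : TwoTrans P L) (hev : Even (order P L)) :
    ∃ (g : Coll P L) (a : L), g ≠ 1 ∧ IsAxis g a := by
  by_contra hno
  push Not at hno
  have : Fact (Nat.Prime 2) := ⟨Nat.prime_two⟩
  have hn := two_le_order (P := P) (L := L)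
  obtain ⟨T⟩ : Nonempty (Sylow 2 (Coll P L)) := inferInstance
  have hT : IsPGroup 2 (T : Subgroup (Coll P L)) := T.isPGroup'
  obtain ⟨p, -, hp⟩ := exists_fixed_in_set hT (Set.univ : Set P) (fun _ _ _ _ => trivial) (by
    rw [Set.ncard_univ, natCard_points (P := P) (L := L)]
    obtain ⟨k, hk⟩ := hev
    rw [hk, show (k + k) ^ 2 + (k + k) + 1 = 2 * (2 * k * k + k) + 1 by ring]
    omega)
  obtain ⟨l, hpl, hl⟩ := exists_fixed_in_set hT (lns (L := L) p)
    (fun g hg m (hm : p ∈ m) => by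
      change p ∈ g • m
      rw [← hp g hg]
      exact (smul_mem_smul g p m).2 hm)
    (by rw [ncard_lns]; obtain ⟨k, hk⟩ := hev; omega)
  obtain ⟨σ, hσ1, hσ⟩ := h2.exists_involution
  have hcard2 : 2 ∣ Nat.card (Coll P L) := by
    rw [← orderOf_eq_prime (p := 2) (by rw [pow_two, hσ]) hσ1]; exact orderOf_dvd_natCard σ
  have : Nontrivial (T : Subgroup (Coll P L)) := Finite.one_lt_card_iff_nontrivial.1 (by
    have h := dvd_card_sylow (k := 1) T (by simpa using hcard2)
    have : 0 < Nat.card T := Nat.card_pos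
    exact lt_of_lt_of_le one_lt_two (Nat.le_of_dvd this (by simpa using h)))
  obtain ⟨j, hj⟩ := (hT.to_subgroup (Subgroup.center T)).exists_card_eq
  have hj0 : j ≠ 0 := by
    rintro rfl
    exact (Finite.one_lt_card_iff_nontrivial.2 hT.center_nontrivial).ne' (by simpa using hj)
  obtain ⟨z, hz⟩ := exists_prime_orderOf_dvd_card' 2 (hj ▸ dvd_pow_self 2 hj0)
  set g : Coll P L := ((z : T) : Coll P L) with hg
  have hg2 : orderOf g = 2 := by rw [hg, Subgroup.orderOf_coe, Subgroup.orderOf_coe, hz]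
  have hgg : g * g = 1 := by rw [← pow_two, ← hg2, pow_orderOf_eq_one]
  have hg1 : g ≠ 1 := fun e => by rw [e, orderOf_one] at hg2; omega
  have hgT : g ∈ (T : Subgroup (Coll P L)) := (z : T).2
  have hq : Quad (Subgroup.zpowers g) := by
    by_contra hq
    obtain ⟨a, ha⟩ := exists_axis_of_not_quad hgg hg1 hq
    exact hno g a hg1 ha
  have hbaer := baer hgg hg1 hq
  set m := subOrder hq with hm
  set s : Set P := {x | x ∈ l ∧ x ≠ p ∧ g • x = x} with hs
  have hscard : s.ncard = m := by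
    have h1 := ncard_fix_line hq (mem_fixL_zpowers.2 (hl g hgT))
    have h3 : s = {x : P | x ∈ fixP (Subgroup.zpowers g) ∧ x ∈ l} \ {p} := by
      ext x
      simp only [hs, Set.mem_ofPred_eq, Set.mem_sdiff, Set.mem_singleton_iff, mem_fixP_zpowers]
      tauto
    rw [h3, Set.ncard_sdiff_singleton_of_mem
      (show p ∈ {x : P | x ∈ fixP (Subgroup.zpowers g) ∧ x ∈ l} from
        ⟨mem_fixP_zpowers.2 (hp g hgT), hpl⟩), h1, hm]
    omega
  have hinv : ∀ t ∈ (T : Subgroup (Coll P L)), ∀ x ∈ s, t • x ∈ s := by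
    rintro t ht x ⟨hx, hxp, hgx⟩
    refine ⟨?_, fun e => hxp (smul_left_cancel t (e.trans (hp t ht).symm)), ?_⟩
    · rw [← hl t ht]; exact (smul_mem_smul t x l).2 hx
    · have hc : t * g = g * t := congrArg Subtype.val (Subgroup.mem_center_iff.1 z.2 ⟨t, ht⟩)
      rw [← mul_smul, ← hc, mul_smul, hgx]
  obtain ⟨a, o, ho, hno'⟩ :=
    Nat.exists_eq_pow_mul_and_not_dvd (by omega : order P L ≠ 0) 2 (by norm_num)
  have hd : 2 ^ a ∣ s.ncard := by
    refine dvd_ncard_of_orbit _ s hinv fun x hx => ?_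
    have h := ncard_orbit_mul_card (T : Subgroup (Coll P L)) x
    obtain ⟨j', hj'⟩ := (hT.to_le
      (inf_le_left : (T : Subgroup (Coll P L)) ⊓ MulAction.stabilizer (Coll P L) x ≤ T)).exists_card_eq
    have h3 : (T : Subgroup (Coll P L)) ⊓ MulAction.stabilizer (Coll P L) x ≤
        MulAction.stabilizer (Coll P L) p ⊓ MulAction.stabilizer (Coll P L) x :=
      inf_le_inf_right _ fun t ht => hp t ht
    have h4 : 2 ^ (a + j') ∣ Nat.card T := by
      refine dvd_card_sylow T (dvd_trans ?_ (order_dvd_of_pair h2 hx.2.1))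
      rw [pow_add, ← hj']
      exact mul_dvd_mul (Dvd.intro _ hno'.symm) (Subgroup.card_dvd_of_le h3)
    rw [hj'] at h
    rw [← h, pow_add] at h4
    exact Nat.dvd_of_mul_dvd_mul_right (Nat.two_pow_pos j') h4
  rw [hscard] at hd
  have ha0 : a ≠ 0 := by
    rintro rfl
    rw [pow_zero, one_mul] at hno'
    exact ho (hno' ▸ hev.two_dvd)
  have h5 : 2 ^ (a + a) ∣ order P L := by rw [hbaer, pow_add, pow_two]; exact mul_dvd_mul hd hd
  rw [hno', pow_add] at h5
  exact ho ((dvd_pow_self 2 ha0).trans (Nat.dvd_of_mul_dvd_mul_left (Nat.two_pow_pos a) h5))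

/-- The stabiliser in a Sylow subgroup of a point off its fixed line. -/
theorem sylow_antiflag (h2 : TwoTrans P L) {q e : ℕ} [Fact q.Prime] (he : order P L = q ^ e)
    (T : Sylow q (Coll P L)) {l : L} (hl : ∀ t ∈ (T : Subgroup (Coll P L)), t • l = l) {x : P}
    (hx : x ∉ l) :
    (∀ W : Subgroup (Coll P L), IsPGroup q W →
      W ≤ MulAction.stabilizer (Coll P L) l ⊓ MulAction.stabilizer (Coll P L) x →
      Nat.card W ≤ Nat.card ↥((T : Subgroup (Coll P L)) ⊓ MulAction.stabilizer (Coll P L) x)) ∧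
    order P L ^ 2 * Nat.card ↥((T : Subgroup (Coll P L)) ⊓ MulAction.stabilizer (Coll P L) x)
      = Nat.card T := by
  have hn : 0 < order P L ^ 2 := by have := two_le_order (P := P) (L := L); positivity
  have h := ncard_orbit_mul_card (T : Subgroup (Coll P L)) x
  have horb : (MulAction.orbit (T : Subgroup (Coll P L)) x).ncard ≤ order P L ^ 2 := by
    rw [← ncard_points_off (P := P) l]
    refine Set.ncard_le_ncard ?_
    rintro _ ⟨⟨t, ht⟩, rfl⟩ e'
    refine hx ((smul_mem_smul t x l).1 ?_)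
    rw [hl t ht]
    exact e'
  have key : ∀ W : Subgroup (Coll P L), IsPGroup q W →
      W ≤ MulAction.stabilizer (Coll P L) l ⊓ MulAction.stabilizer (Coll P L) x →
      order P L ^ 2 * Nat.card W ≤ Nat.card T := by
    intro W hW hWle
    obtain ⟨j, hj⟩ := hW.exists_card_eq
    refine Nat.le_of_dvd Nat.card_pos ?_
    rw [he, hj, ← pow_mul, ← pow_add]
    refine dvd_card_sylow T (dvd_trans ?_ (sq_dvd_of_antiflag h2 hx))
    rw [pow_add, pow_mul, ← he, ← hj]
    exact mul_dvd_mul_left _ (Subgroup.card_dvd_of_le hWle)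
  have hU := key _ (T.isPGroup'.to_le inf_le_left) (inf_le_inf_right _ fun t ht => hl t ht)
  have heq : order P L ^ 2 * Nat.card ↥((T : Subgroup (Coll P L)) ⊓ MulAction.stabilizer (Coll P L) x)
      = Nat.card T := by
    refine le_antisymm hU ?_
    rw [← h]
    exact Nat.mul_le_mul_right _ horb
  refine ⟨fun W hW hWle => ?_, heq⟩
  have := key W hW hWle
  rw [← heq] at this
  exact Nat.le_of_mul_le_mul_left this hn

/-- A maximal `q`-group fixing an antiflag fixes no quadrangle. -/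
theorem not_quad_sylow (h2 : TwoTrans P L) {q e : ℕ} [hq : Fact q.Prime] (he : order P L = q ^ e)
    (he0 : e ≠ 0) {U : Subgroup (Coll P L)} {x : P} {l : L} (hx : x ∉ l) (hU : IsPGroup q U)
    (hUle : U ≤ MulAction.stabilizer (Coll P L) l ⊓ MulAction.stabilizer (Coll P L) x)
    (hmax : ∀ W : Subgroup (Coll P L), IsPGroup q W →
      W ≤ MulAction.stabilizer (Coll P L) l ⊓ MulAction.stabilizer (Coll P L) x →
      Nat.card W ≤ Nat.card U) : ¬ Quad U := by
  intro hquad
  letI := subPlane hquad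
  have hq2 := hq.out.two_le
  set s := subOrder hquad with hs
  have hs2 : 2 ≤ s := two_le_subOrder hquad
  have hqs : q ∣ s := by
    have hlU : l ∈ fixL U := fun u hu => (hUle hu).1
    have h1 := card_fixed_modEq hU (pts (P := P) l) (fun u hu y (hy : y ∈ l) => by
      change u • y ∈ l
      rw [← hlU u hu]; exact (smul_mem_smul u y l).2 hy)
    rw [show {y ∈ pts (P := P) l | ∀ u ∈ U, u • y = y} = {y : P | y ∈ fixP U ∧ y ∈ l} from by
      ext y; exact and_comm, ncard_fix_line hquad hlU, ncard_pts, he] at h1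
    have h3 : 0 + 1 ≡ s + 1 [MOD q] :=
      ((Nat.modEq_zero_iff_dvd.2 (dvd_pow_self q he0)).add_right 1).symm.trans h1
    exact Nat.modEq_zero_iff_dvd.1 (Nat.ModEq.add_right_cancel' 1 h3).symm
  set K := (res U).range with hK
  -- the restriction is transitive on antiflags
  have htrans : ∀ (p p' : SubP U) (m : SubL U), p ∉ m → p' ∉ m →
      ∃ k ∈ K, k • p = p' ∧ k • m = m := by
    intro p p' m hp hp'
    obtain ⟨g, hgx, hgl⟩ := h2.antiflag hx (show p.1 ∉ m.1 from hp)
    obtain ⟨g', hgx', hgl'⟩ := h2.antiflag hx (show p'.1 ∉ m.1 from hp')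
    have hw : ∀ (g₀ : Coll P L) (r : SubP U), g₀ • x = r.1 → g₀ • l = m.1 →
        ∃ h ∈ MulAction.stabilizer (Coll P L) l ⊓ MulAction.stabilizer (Coll P L) x,
          h * g₀⁻¹ ∈ nz U := by
      intro g₀ r hg hg'
      refine exists_mem_normalizer hU hUle (fun W hW hWq => hmax W hWq hW) g₀⁻¹ fun u hu => ?_
      rw [inv_inv]
      refine Subgroup.mem_inf.2 ⟨?_, ?_⟩ <;> rw [MulAction.mem_stabilizer_iff, mul_smul, mul_smul]
      · rw [hg', m.2 u hu, ← hg', inv_smul_smul]
      · rw [hg, r.2 u hu, ← hg, inv_smul_smul]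
    obtain ⟨h, hh, hn⟩ := hw g p hgx hgl
    obtain ⟨h', hh', hn'⟩ := hw g' p' hgx' hgl'
    obtain ⟨hhl, hhx⟩ := Subgroup.mem_inf.1 hh
    obtain ⟨hhl', hhx'⟩ := Subgroup.mem_inf.1 hh'
    refine ⟨res U ((⟨_, hn'⟩ : nz U)⁻¹ * ⟨_, hn⟩), ⟨_, rfl⟩, Subtype.ext ?_, Subtype.ext ?_⟩
    · rw [res_smul_point]
      change ((h' * g'⁻¹)⁻¹ * (h * g⁻¹)) • p.1 = p'.1
      rw [mul_smul, mul_smul h, ← hgx, inv_smul_smul, MulAction.mem_stabilizer_iff.1 hhx,
        inv_smul_eq_iff, mul_smul, ← hgx', inv_smul_smul, MulAction.mem_stabilizer_iff.1 hhx']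
    · rw [res_smul_line]
      change ((h' * g'⁻¹)⁻¹ * (h * g⁻¹)) • m.1 = m.1
      rw [mul_smul, mul_smul h, show g⁻¹ • m.1 = l by rw [← hgl, inv_smul_smul],
        MulAction.mem_stabilizer_iff.1 hhl, inv_smul_eq_iff, mul_smul,
        show g'⁻¹ • m.1 = l by rw [← hgl', inv_smul_smul], MulAction.mem_stabilizer_iff.1 hhl']
  have hKcard : s ^ 2 ∣ Nat.card K := by
    obtain ⟨m₀⟩ : Nonempty (SubL U) := ⟨⟨l, fun u hu => (hUle hu).1⟩⟩
    obtain ⟨p₀, hp₀⟩ := Nondegenerate.exists_point (P := SubP U) m₀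
    have h := ncard_orbit_mul_card (K ⊓ MulAction.stabilizer (Coll (SubP U) (SubL U)) m₀) p₀
    rw [show MulAction.orbit ↥(K ⊓ MulAction.stabilizer (Coll (SubP U) (SubL U)) m₀) p₀ =
        {z | z ∉ m₀} from ?_, ncard_points_off] at h
    · rw [hs, subOrder]
      exact (Dvd.intro _ h).trans (Subgroup.card_dvd_of_le inf_le_left)
    · ext z
      constructor
      · rintro ⟨⟨k, hk⟩, rfl⟩ e'
        refine hp₀ ((smul_mem_smul k p₀ m₀).1 ?_)
        rw [MulAction.mem_stabilizer_iff.1 hk.2]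
        exact e'
      · intro hz
        obtain ⟨k, hk, hk1, hk2⟩ := htrans p₀ z m₀ hp₀ hz
        exact ⟨⟨k, hk, hk2⟩, hk1⟩
  obtain ⟨R⟩ : Nonempty (Sylow q K) := inferInstance
  set R' : Subgroup (Coll (SubP U) (SubL U)) := (R : Subgroup K).map K.subtype with hR'
  have hR : IsPGroup q R' := R.isPGroup'.map _
  have hsord : order (SubP U) (SubL U) = s := rfl
  obtain ⟨X, -, hX⟩ := exists_fixed_in_set hR (Set.univ : Set (SubP U)) (fun _ _ _ _ => trivial) (by
    rw [Set.ncard_univ, natCard_points (P := SubP U) (L := SubL U), hsord]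
    intro h
    have h1 : q ∣ s ^ 2 + s := Nat.dvd_add (dvd_pow hqs two_ne_zero) hqs
    exact hq.out.not_dvd_one ((Nat.dvd_add_right h1).1 h))
  obtain ⟨l', hXl, hl'⟩ := exists_fixed_in_set hR (lns (L := SubL U) X)
    (fun g hg m (hm : X ∈ m) => by
      change X ∈ g • m
      rw [← hX g hg]
      exact (smul_mem_smul g X m).2 hm)
    (by
      rw [ncard_lns, hsord]
      intro h
      exact hq.out.not_dvd_one ((Nat.dvd_add_right hqs).1 h))
  obtain ⟨Y, hY, hYs⟩ : ∃ Y ∈ {y : SubP U | y ∈ l' ∧ y ≠ X},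
      R' ⊓ MulAction.stabilizer (Coll (SubP U) (SubL U)) Y ≠ ⊥ := by
    by_contra hcon
    push Not at hcon
    have hd : Nat.card R' ∣ {y : SubP U | y ∈ l' ∧ y ≠ X}.ncard := by
      refine dvd_ncard_of_orbit R' _ (fun g hg y hy => ⟨?_, fun e' => hy.2 ?_⟩) fun y hy => ?_
      · rw [← hl' g hg]; exact (smul_mem_smul g y l').2 hy.1
      · exact smul_left_cancel g (e'.trans (hX g hg).symm)
      · have h := ncard_orbit_mul_card R' y
        rw [hcon y hy, Subgroup.card_bot, mul_one] at h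
        rw [h]
    rw [ncard_pts_ne (P := SubP U) (L := SubL U) hXl, hsord, hR', Subgroup.card_subtype] at hd
    obtain ⟨b, o, ho, hso⟩ :=
      Nat.exists_eq_pow_mul_and_not_dvd (by omega : s ≠ 0) q hq.out.ne_one
    have hb : b ≠ 0 := by
      rintro rfl
      rw [pow_zero, one_mul] at hso
      exact ho (hso ▸ hqs)
    have h1 : q ^ (b + b) ∣ Nat.card R := dvd_card_sylow R (dvd_trans ⟨o ^ 2, by rw [hso]; ring⟩ hKcard)
    have h3 := h1.trans hd
    rw [hso, pow_add] at h3
    exact ho ((dvd_pow_self q hb).trans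
      (Nat.dvd_of_mul_dvd_mul_left (pow_pos hq.out.pos b) h3))
  obtain ⟨r, hr1⟩ := Subgroup.ne_bot_iff_exists_ne_one.1 hYs
  have hr := r.2
  obtain ⟨hrR, hrY⟩ := Subgroup.mem_inf.1 hr
  obtain ⟨m, hm, hml⟩ : ∃ m : SubL U, r.1 • m = m ∧ m ≠ l' := by
    by_contra hcon
    push Not at hcon
    have h1 : MulAction.fixedBy (SubL U) r.1 ⊆ {l'} := fun m hm => hcon m hm
    have h3 : ({X, Y} : Set (SubP U)) ⊆ MulAction.fixedBy (SubP U) r.1 := by
      rintro z (rfl | rfl)
      · exact hX r.1 hrR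
      · exact hrY
    have h4 := Set.ncard_le_ncard h1
    have h5 := Set.ncard_le_ncard h3
    rw [Set.ncard_pair hY.2.symm, card_fixedBy_eq] at h5
    rw [Set.ncard_singleton] at h4
    omega
  obtain ⟨Z, hZm, hZ⟩ : ∃ Z : SubP U, Z ∉ m ∧ r.1 • Z = Z := by
    by_cases hXm : X ∈ m
    · exact ⟨Y, fun e' => hY.2 (point_eq hml e' hY.1 hXm hXl), hrY⟩
    · exact ⟨X, hXm, hX r.1 hrR⟩
  obtain ⟨k, -, hk⟩ : ∃ k : K, k ∈ (R : Subgroup K) ∧ (k : Coll (SubP U) (SubL U)) = r.1 := by
    obtain ⟨k, hk, hk'⟩ := hrR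
    exact ⟨k, hk, hk'⟩
  obtain ⟨g, hg⟩ := k.2
  obtain ⟨j, hj⟩ := hR ⟨r.1, hrR⟩
  obtain ⟨i, -, hi⟩ := (Nat.dvd_prime_pow hq.out).1
    (orderOf_dvd_of_pow_eq_one (congrArg Subtype.val hj : r.1 ^ q ^ j = 1))
  have hgr : res U g = r.1 := hg.trans hk
  obtain ⟨W, hUW, hWq, hWP, hWL⟩ :=
    exists_larger hU g (fun e' => hr1 (Subtype.ext (hgr.symm.trans e'))) ⟨i, by rw [hgr, hi]⟩
  obtain ⟨c, hc1, hc2⟩ := h2.antiflag (show Z.1 ∉ m.1 from hZm) hx
  have hle : W.map (MulAut.conj c).toMonoidHom ≤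
      MulAction.stabilizer (Coll P L) l ⊓ MulAction.stabilizer (Coll P L) x :=
    le_inf (conj_le_stab_line hc2 fun w hw => hWL m (by rw [hgr]; exact hm) w hw)
      (conj_le_stab hc1 fun w hw => hWP Z (by rw [hgr]; exact hZ) w hw)
  have h6 := hmax _ (hWq.map _) hle
  rw [← Nat.card_congr (Subgroup.equivMapOfInjective W _ (MulAut.conj c).injective).toEquiv] at h6
  exact hUW.ne (Subgroup.eq_of_le_of_card_ge hUW.le h6)

/-- For prime power order some collineation is a perspectivity. -/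
theorem exists_axis_of_primePower (h2 : TwoTrans P L) (hpp : PrimePowerOrder P L) :
    ∃ (g : Coll P L) (a : L), g ≠ 1 ∧ IsAxis g a := by
  obtain ⟨q, e, hq, he⟩ := hpp
  have := Fact.mk hq
  have hn := two_le_order (P := P) (L := L)
  have he0 : e ≠ 0 := by rintro rfl; rw [pow_zero] at he; omega
  have hqn : q ∣ order P L := he ▸ dvd_pow_self q he0
  obtain ⟨T⟩ : Nonempty (Sylow q (Coll P L)) := inferInstance
  have hT : IsPGroup q (T : Subgroup (Coll P L)) := T.isPGroup'
  obtain ⟨X, -, hX⟩ := exists_fixed_in_set hT (Set.univ : Set P) (fun _ _ _ _ => trivial) (by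
    rw [Set.ncard_univ, natCard_points (P := P) (L := L)]
    intro h
    have h1 : q ∣ order P L ^ 2 + order P L := Nat.dvd_add (dvd_pow hqn two_ne_zero) hqn
    exact hq.not_dvd_one ((Nat.dvd_add_right h1).1 h))
  obtain ⟨l, hXl, hl⟩ := exists_fixed_in_set hT (lns (L := L) X)
    (fun g hg m (hm : X ∈ m) => by
      change X ∈ g • m
      rw [← hX g hg]
      exact (smul_mem_smul g X m).2 hm)
    (by
      rw [ncard_lns]
      intro h
      exact hq.not_dvd_one ((Nat.dvd_add_right hqn).1 h))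
  have hU1 : ∀ x : P, x ∉ l → ∀ Y : P, Y ∈ l →
      Y ∈ fixP ((T : Subgroup (Coll P L)) ⊓ MulAction.stabilizer (Coll P L) x) → Y = X := by
    intro x hx Y hY hYU
    by_contra hYX
    set U := (T : Subgroup (Coll P L)) ⊓ MulAction.stabilizer (Coll P L) x with hU
    obtain ⟨hmax, -⟩ := sylow_antiflag h2 he T hl hx
    have hUq : IsPGroup q U := hT.to_le inf_le_left
    have hUle : U ≤ MulAction.stabilizer (Coll P L) l ⊓ MulAction.stabilizer (Coll P L) x :=
      inf_le_inf_right _ fun t ht => hl t ht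
    obtain ⟨a, c, hac⟩ :=
      exists_line_point_of_not_quad (not_quad_sylow h2 he he0 hx hUq hUle hmax)
    have hlU : l ∈ fixL U := fun u hu => (hUle hu).1
    have hxU : x ∈ fixP U := fun u hu => (hUle hu).2
    have hXU : X ∈ fixP U := fun u hu => hX u (Subgroup.mem_inf.1 hu).1
    set F : Set P := {y | y ∈ fixP U ∧ y ∈ l} with hF
    have hFcard : 3 ≤ F.ncard := by
      have h1 := card_fixed_modEq hUq (pts (P := P) l) (fun u hu y (hy : y ∈ l) => by
        change u • y ∈ l
        rw [← hlU u hu]; exact (smul_mem_smul u y l).2 hy)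
      rw [show {y ∈ pts (P := P) l | ∀ u ∈ U, u • y = y} = F from by ext y; exact and_comm,
        ncard_pts] at h1
      have h3 : 2 ≤ F.ncard := by
        have h4 : ({X, Y} : Set P) ⊆ F := by
          rintro z (rfl | rfl)
          · exact ⟨hXU, hXl⟩
          · exact ⟨hYU, hY⟩
        have := Set.ncard_le_ncard h4
        rwa [Set.ncard_pair (Ne.symm hYX)] at this
      by_contra hlt
      have h5 : F.ncard = 2 := by omega
      rw [h5] at h1
      have h6 : 0 + 1 ≡ 1 + 1 [MOD q] :=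
        ((Nat.modEq_zero_iff_dvd.2 hqn).add_right 1).symm.trans h1
      exact hq.not_dvd_one (Nat.modEq_zero_iff_dvd.1 (Nat.ModEq.add_right_cancel' 1 h6).symm)
    have hal : a = l := by
      by_contra hne
      have h1 : F ⊆ {meet a l, c} := fun y hy => (hac y hy.1).imp (fun e => eq_meet hne e hy.2) id
      have h3 := Set.ncard_le_ncard h1
      have h4 := Set.ncard_insert_le (meet a l : P) {c}
      rw [Set.ncard_singleton] at h4
      omega
    have hcx : c = x := ((hac x hxU).resolve_left (hal ▸ hx)).symm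
    set j : L := join x Y with hj
    have hxY : x ≠ Y := fun e' => hx (e' ▸ hY)
    have hjl : j ≠ l := fun e' => hx (e' ▸ left_mem_join x Y)
    have hXj : X ∉ j := fun e' => hYX (point_eq hjl (right_mem_join x Y) hY e' hXl)
    have hjU : j ∈ fixL U := join_mem_fixL hxY hxU hYU
    obtain ⟨g, hg1, hg2⟩ := h2.antiflag hx hXj
    obtain ⟨h, hh, hn'⟩ := exists_mem_normalizer hUq hUle (fun W hW hWq => hmax W hWq hW) g⁻¹
      (fun u hu => by
        rw [inv_inv]
        refine Subgroup.mem_inf.2 ⟨?_, ?_⟩ <;>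
          rw [MulAction.mem_stabilizer_iff, mul_smul, mul_smul]
        · rw [hg2, hjU u hu, ← hg2, inv_smul_smul]
        · rw [hg1, hXU u hu, ← hg1, inv_smul_smul])
    have hgn : g * h⁻¹ ∈ nz U := by
      have := (nz U).inv_mem hn'
      rwa [mul_inv_rev, inv_inv] at this
    have hjl' : (g * h⁻¹) • l = j := by
      rw [mul_smul, show h⁻¹ • l = l from by
        rw [inv_smul_eq_iff]; exact (MulAction.mem_stabilizer_iff.1 (Subgroup.mem_inf.1 hh).1).symm, hg2]
    have h7 : (fun y => (g * h⁻¹) • y) '' F ⊆ {x, Y} := by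
      rintro _ ⟨y, ⟨hy, hyl⟩, rfl⟩
      have h8 : (g * h⁻¹) • y ∈ j := hjl' ▸ (smul_mem_smul _ y l).2 hyl
      rcases hac _ (smul_mem_fixP hgn hy) with h9 | h9
      · exact Or.inr (point_eq hjl h8 (hal ▸ h9) (right_mem_join x Y) hY)
      · exact Or.inl (h9.trans hcx)
    have h10 := Set.ncard_le_ncard h7
    rw [Set.ncard_image_of_injective _ (MulAction.injective _), Set.ncard_pair hxY] at h10
    omega
  obtain ⟨x₀, hx₀⟩ := Nondegenerate.exists_point (P := P) l
  have : Nontrivial (T : Subgroup (Coll P L)) := Finite.one_lt_card_iff_nontrivial.1 (by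
    rw [← (sylow_antiflag h2 he T hl hx₀).2]
    have h1 : 4 ≤ order P L ^ 2 := by nlinarith
    have : 0 < Nat.card ↥((T : Subgroup (Coll P L)) ⊓ MulAction.stabilizer (Coll P L) x₀) :=
      Nat.card_pos
    nlinarith)
  have := hT.center_nontrivial
  obtain ⟨z, hz⟩ := exists_ne (1 : Subgroup.center (T : Subgroup (Coll P L)))
  set g : Coll P L := ((z : T) : Coll P L) with hg
  have hgT : g ∈ (T : Subgroup (Coll P L)) := (z : T).2
  have hg1 : g ≠ 1 := fun e' => hz (Subtype.ext (Subtype.ext e'))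
  have hmove : ∀ x : P, x ∉ l → g • x ∈ (join x X : L) := by
    intro x hx
    by_cases hgx : g • x = x
    · rw [hgx]; exact left_mem_join x X
    set U := (T : Subgroup (Coll P L)) ⊓ MulAction.stabilizer (Coll P L) x with hU
    have hxU : x ∈ fixP U := fun u hu => (Subgroup.mem_inf.1 hu).2
    have hgxU : g • x ∈ fixP U := fun u hu => by
      have hc : u * g = g * u :=
        congrArg Subtype.val (Subgroup.mem_center_iff.1 z.2 ⟨u, (Subgroup.mem_inf.1 hu).1⟩)
      rw [← mul_smul, hc, mul_smul, hxU u hu]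
    set j : L := join x (g • x) with hj
    have hjl : j ≠ l := fun e' => hx (e' ▸ left_mem_join x (g • x))
    have hmX : (meet j l : P) = X := hU1 x hx _ (meet_mem_right j l)
      (meet_mem_fixP hjl (join_mem_fixL (Ne.symm hgx) hxU hgxU)
        (fun u hu => hl u (Subgroup.mem_inf.1 hu).1))
    have hXj : X ∈ j := hmX ▸ meet_mem_left j l
    rw [← eq_join (fun e' : x = X => hx (e' ▸ hXl)) (left_mem_join x (g • x)) hXj]
    exact right_mem_join x (g • x)
  have hc : IsCentre g X := by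
    intro m hXm
    by_cases hml : m = l
    · rw [hml]; exact hl g hgT
    obtain ⟨u, hu, huX⟩ := exists_point_on_ne m X
    obtain ⟨v, hv, hvX, hvu⟩ := exists_point_on_ne₂ m X u
    have hul : u ∉ l := fun e' => huX (point_eq hml hu e' hXm hXl)
    have hvl : v ∉ l := fun e' => hvX (point_eq hml hv e' hXm hXl)
    refine line_eq (fun e' => hvu (smul_left_cancel g e').symm) ((smul_mem_smul g u m).2 hu)
      ((smul_mem_smul g v m).2 hv) ?_ ?_
    · exact eq_join huX hu hXm ▸ hmove u hul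
    · exact eq_join hvX hv hXm ▸ hmove v hvl
  obtain ⟨a, ha⟩ := hc.exists_axis
  exact ⟨g, a, hg1, ha⟩

/-- A two-transitive plane has a perspectivity. -/
theorem exists_axis (h2 : TwoTrans P L) : ∃ (g : Coll P L) (a : L), g ≠ 1 ∧ IsAxis g a := by
  rcases Nat.even_or_odd (order P L) with hev | hodd
  · exact exists_axis_of_even h2 hev
  · obtain ⟨σ, hσ1, hσ⟩ := h2.exists_involution
    by_cases hq : Quad (Subgroup.zpowers σ)
    · have : Fact (Nat.Prime 2) := ⟨Nat.prime_two⟩
      refine exists_axis_of_primePower h2 (primePower_of_quad h2 hodd ?_ hq)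
      refine IsPGroup.of_card (n := 1) ?_
      rw [Nat.card_zpowers, orderOf_eq_prime (by rw [pow_two, hσ]) hσ1, pow_one]
    · obtain ⟨a, ha⟩ := exists_axis_of_not_quad hσ hσ1 hq
      exact ⟨σ, a, hσ1, ha⟩

end Cfsg.Agent.H27.OW
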