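import Mathlib
import Cfsg.Agent.H27.OW.Existence

/-!
# A two-transitive plane is a translation plane at each line
-/

set_option autoImplicit false
set_option linter.unusedSectionVars false

namespace Cfsg.Agent.H27.OW

open Configuration Configuration.ProjectivePlane

variable {P L : Type*} [Membership P L] [ProjectivePlane P L] [Finite P] [Finite L]

/-- A two-transitive plane has an elation. -/
theorem exists_elation (h2 : TwoTrans P L) :
    ∃ (g : Coll P L) (a : L) (c : P), g ≠ 1 ∧ IsAxis g a ∧ IsCentre g c ∧ c ∈ a := by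
  by_contra hno
  push Not at hno
  obtain ⟨g₀, a, hg₀, hga⟩ := exists_axis h2
  obtain ⟨c₀, hgc⟩ := hga.exists_centre
  have hc₀ : c₀ ∉ a := hno g₀ a c₀ hg₀ hga hgc
  set A := subAct (axisGroup (P := P) a) {x : P | x ∉ a} (fun g hg x (hx : x ∉ a) e => hx (by
    rwa [smul_mem_iff, show g⁻¹ • a = a from by rw [inv_smul_eq_iff, IsAxis.fix hg]] at e)) with hA
  have hone : ∀ g : axisGroup (P := P) a, g ≠ 1 →
      ∀ x y : A, g • x = x → g • y = y → x = y := by
    intro g hg x y hx hy
    obtain ⟨c, hc⟩ := IsAxis.exists_centre g.2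
    have hg' : (g : Coll P L) ≠ 1 := fun e => hg (Subtype.ext e)
    have h1 := (eq_centre_of_fixed g.2 hc hg' (congrArg Subtype.val hx)).resolve_left x.2
    have h3 := (eq_centre_of_fixed g.2 hc hg' (congrArg Subtype.val hy)).resolve_left y.2
    exact Subtype.ext (h1.trans h3.symm)
  have hex : ∀ x : A, ∃ g : axisGroup (P := P) a, g ≠ 1 ∧ g • x = x := by
    intro x
    obtain ⟨k, hk1, hk2⟩ := h2.antiflag hc₀ (show x.1 ∉ a from x.2)
    have ha' : IsAxis (k * g₀ * k⁻¹) a := by
      have := hga.conj k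
      rwa [hk2] at this
    have hc' : IsCentre (k * g₀ * k⁻¹) x.1 := hk1 ▸ hgc.conj k
    refine ⟨⟨_, ha'⟩, fun e => hg₀ ?_, Subtype.ext hc'.fix⟩
    have e' : k * g₀ * k⁻¹ = 1 := congrArg Subtype.val e
    rwa [mul_inv_eq_one, mul_eq_left] at e'
  choose f hf1 hf2 using hex
  have hfinj : Function.Injective f := fun x y e => hone (f x) (hf1 x) x y (hf2 x) (e ▸ hf2 y)
  have : Fintype A := Fintype.ofFinite _
  have : Fintype (axisGroup (P := P) a) := Fintype.ofFinite _
  classical
  have hlt : Fintype.card A < Fintype.card (axisGroup (P := P) a) :=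
    Fintype.card_lt_of_injective_of_notMem f hfinj (b := 1) (by
      rintro ⟨x, hx⟩
      exact hf1 x hx)
  have hcardA : Fintype.card A = order P L ^ 2 := by
    rw [← Nat.card_eq_fintype_card, ← ncard_points_off (P := P) a]
    exact Nat.card_coe_set_eq _
  have h1 := MulAction.sum_card_fixedBy_eq_card_orbits_mul_card_group (axisGroup (P := P) a) A
  have h3 : ∀ g ∈ (Finset.univ : Finset (axisGroup (P := P) a)).erase 1,
      Fintype.card (MulAction.fixedBy A g) = 1 := by
    intro g hg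
    obtain ⟨c, hc⟩ := IsAxis.exists_centre g.2
    have hg' : g ≠ 1 := Finset.ne_of_mem_erase hg
    have hca : c ∉ a := hno g.1 a c (fun e => hg' (Subtype.ext e)) g.2 hc
    refine Fintype.card_eq_one_iff.2 ⟨⟨⟨c, hca⟩, Subtype.ext hc.fix⟩, fun y => ?_⟩
    exact Subtype.ext (hone g hg' y.1 ⟨c, hca⟩ y.2 (Subtype.ext hc.fix))
  have h4 : Fintype.card (MulAction.fixedBy A (1 : axisGroup (P := P) a)) = Fintype.card A :=
    Fintype.card_congr (Equiv.subtypeUnivEquiv fun x => one_smul _ x)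
  rw [← Finset.add_sum_erase _ _ (Finset.mem_univ (1 : axisGroup (P := P) a)),
    Finset.sum_congr rfl h3, Finset.sum_const, Finset.card_erase_of_mem (Finset.mem_univ _),
    Finset.card_univ, smul_eq_mul, mul_one, h4, hcardA] at h1
  rw [hcardA] at hlt
  generalize Fintype.card (axisGroup (P := P) a) = N at h1 hlt
  generalize (Fintype.card (MulAction.orbitRel.Quotient (axisGroup (P := P) a) A)) = k at h1
  have hn := two_le_order (P := P) (L := L)
  have h5 : 4 ≤ order P L ^ 2 := by nlinarith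
  rcases Nat.lt_or_ge k 2 with hk | hk
  · interval_cases k <;> omega
  · have : 2 * N ≤ k * N := Nat.mul_le_mul_right N hk
    omega

theorem exists_elation_flag (h2 : TwoTrans P L) {X : P} {a : L} (hX : X ∈ a) :
    ∃ g : Coll P L, g ≠ 1 ∧ IsAxis g a ∧ IsCentre g X := by
  obtain ⟨g, b, c, hg, hb, hc, hcb⟩ := exists_elation h2
  obtain ⟨k, hk1, hk2⟩ := h2.flag hcb hX
  refine ⟨k * g * k⁻¹, fun e => hg ?_, hk2 ▸ hb.conj k, hk1 ▸ hc.conj k⟩
  rwa [mul_inv_eq_one, mul_eq_left] at e

theorem two_le_eX (h2 : TwoTrans P L) {X : P} {a : L} (hX : X ∈ a) : 2 ≤ eX (elA a) X := by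
  obtain ⟨g, hg, ha, hc⟩ := exists_elation_flag h2 hX
  rw [eX]
  exact Finite.one_lt_card_iff_nontrivial.2
    ⟨⟨⟨g, mem_elA_of_elation ha hc hX, hc⟩, 1, fun e => hg (congrArg Subtype.val e)⟩⟩

theorem eX_const (h2 : TwoTrans P L) {X Y : P} {a : L} (hX : X ∈ a) (hY : Y ∈ a) :
    eX (elA a) X ≤ eX (elA a) Y := by
  obtain ⟨k, hk1, hk2⟩ := h2.flag hX hY
  rw [eX, eX]
  refine Nat.card_le_card_of_injective
    (fun g => ⟨k * g.1 * k⁻¹, ?_, ?_⟩) fun g g' e => Subtype.ext ?_
  · obtain ⟨c, hca, hc⟩ := exists_centre_of_mem_elA g.2.1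
    exact mem_elA_of_elation (by have := IsAxis.conj g.2.1.1 k; rwa [hk2] at this) (hc.conj k)
      (by have := (smul_mem_smul k c a).2 hca; rwa [hk2] at this)
  · exact mem_centreGroup.2 (hk1 ▸ IsCentre.conj g.2.2 k)
  · exact mul_left_cancel (mul_right_cancel (congrArg Subtype.val e))

/-- The counts for the elations with one axis. -/
theorem elA_counts (h2 : TwoTrans P L) (a : L) :
    Nat.card (elA (P := P) a) = order P L ^ 2 ∧
      ∀ X : P, X ∈ a → eX (elA a) X = order P L := by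
  classical
  have := Fintype.ofFinite P
  obtain ⟨X, hX, -⟩ := exists_point_on_ne (P := P) a (meet a a)
  have hall : ∀ Y : P, Y ∈ a → eX (elA a) Y = eX (elA a) X := fun Y hY =>
    le_antisymm (eX_const h2 hY hX) (eX_const h2 hX hY)
  have hcard : (Finset.univ.filter fun Z : P => Z ∈ a).card = order P L + 1 := by
    rw [← ncard_pts (P := P) a, pts, Set.ncard_eq_toFinset_card']
    congr 1; ext; simp
  have htot := card_eq_sum (a := a) (H := elA (P := P) a) le_rfl
  rw [Finset.sum_congr rfl (fun Y hY => show eX (elA a) Y - 1 = eX (elA a) X - 1 by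
      rw [hall Y (Finset.mem_filter.1 hY).2]), Finset.sum_const, hcard, smul_eq_mul] at htot
  have hmul := index_mul_eX (elA a) X
  have he := two_le_eX h2 hX
  have hn := two_le_order (P := P) (L := L)
  have hidx := gleason_arith (n := order P L)
    (M := ((centreGroup X).subgroupOf (elA a)).index) (e := eX (elA a) X) (by omega) he
    (index_centre_dvd le_rfl hX) (by omega)
  rw [hidx, htot] at hmul
  obtain ⟨d, hd⟩ : ∃ d, eX (elA a) X = d + 1 := ⟨_, (Nat.sub_add_cancel (by omega)).symm⟩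
  rw [hd, Nat.add_sub_cancel] at hmul htot
  have hed : order P L = d + 1 := by nlinarith
  refine ⟨?_, fun Y hY => by rw [hall Y hY, hd, hed]⟩
  rw [htot, hed]
  ring

theorem elA_comm (h2 : TwoTrans P L) {a : L} {g h : Coll P L} (hg : g ∈ elA a) (hh : h ∈ elA a) :
    g * h = h * g := by
  obtain ⟨X, hX, -⟩ := exists_point_on_ne (P := P) a (meet a a)
  obtain ⟨Y, hY, hYX⟩ := exists_point_on_ne a X
  obtain ⟨u, hu, hua, huX⟩ := exists_elation_flag h2 hX
  obtain ⟨v, hv, hva, hvY⟩ := exists_elation_flag h2 hY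
  exact TwoCentres.comm (H := elA a) ⟨u, mem_elA_of_elation hua huX hX, v,
    mem_elA_of_elation hva hvY hY, X, Y, hu, hv, huX, hvY, hYX.symm, hX, hY⟩ le_rfl hg hh

/-- The elations with axis `a` are transitive on the points off `a`. -/
theorem elA_transitive (h2 : TwoTrans P L) {a : L} {x y : P} (hx : x ∉ a) (hy : y ∉ a) :
    ∃ g ∈ elA a, g • x = y := by
  have h := ncard_orbit_mul_card (elA (P := P) a) x
  have hbot : elA (P := P) a ⊓ MulAction.stabilizer (Coll P L) x = ⊥ := by
    rw [eq_bot_iff]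
    intro g hg
    exact Subgroup.mem_bot.2 ((Subgroup.mem_inf.1 hg).1.2 x hx (Subgroup.mem_inf.1 hg).2)
  rw [hbot, Subgroup.card_bot, mul_one, (elA_counts h2 a).1] at h
  have hsub : MulAction.orbit (elA (P := P) a) x ⊆ {z : P | z ∉ a} := by
    rintro _ ⟨⟨g, hg⟩, rfl⟩ e
    refine hx ((smul_mem_smul g x a).1 ?_)
    rw [IsAxis.fix hg.1]
    exact e
  have heq := Set.eq_of_subset_of_ncard_le hsub (by rw [h, ncard_points_off])
  obtain ⟨⟨g, hg⟩, hgx⟩ : y ∈ MulAction.orbit (elA (P := P) a) x := heq ▸ hy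
  exact ⟨g, hg, hgx⟩

/-- The elations with centre `X` and axis `a` are transitive on each other line through `X`. -/
theorem elation_transitive (h2 : TwoTrans P L) {a m : L} {X x y : P} (hXa : X ∈ a) (hXm : X ∈ m)
    (hma : m ≠ a) (hx : x ∈ m) (hy : y ∈ m) (hxX : x ≠ X) (hyX : y ≠ X) :
    ∃ g ∈ elA a ⊓ centreGroup X, g • x = y := by
  have hxa : x ∉ a := fun e => hxX (point_eq hma hx e hXm hXa)
  have hya : y ∉ a := fun e => hyX (point_eq hma hy e hXm hXa)
  obtain ⟨g, hg, hgx⟩ := elA_transitive h2 hxa hya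
  refine ⟨g, Subgroup.mem_inf.2 ⟨hg, centre_of_fixed_line hg ?_ hma hXm hXa⟩, hgx⟩
  exact line_eq hyX (hgx ▸ (smul_mem_smul g x m).2 hx)
    (by rw [← hg.1 X hXa]; exact (smul_mem_smul g X m).2 hXm) hy hXm

end Cfsg.Agent.H27.OW
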