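import Mathlib
import Cfsg.Agent.H27.OW.Translation
import Cfsg.Agent.H34.UnitSpace.Main

/-!
# Slopes of a translation plane with transitive shears
-/

set_option autoImplicit false
set_option linter.unusedSectionVars false

namespace Cfsg.Agent.H27.OW

open Configuration Configuration.ProjectivePlane

variable {P L : Type*} [Membership P L] [ProjectivePlane P L] [Finite P] [Finite L]

/-- Parametrisations of two groups of elations with axis `a`. -/
structure Frame (a : L) (U V : P) (W : Type*) [AddCommGroup W] where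
  memU : U ∈ a
  memV : V ∈ a
  ne : U ≠ V
  φ : W → Coll P L
  ψ : W → Coll P L
  φ_add : ∀ x y, φ (x + y) = φ x * φ y
  ψ_add : ∀ x y, ψ (x + y) = ψ x * ψ y
  φ_mem : ∀ x, φ x ∈ elA a ∧ IsCentre (φ x) V
  ψ_mem : ∀ x, ψ x ∈ elA a ∧ IsCentre (ψ x) U
  φ_inj : Function.Injective φ
  ψ_inj : Function.Injective ψ
  φ_surj : ∀ g ∈ elA a, IsCentre g V → ∃ x, φ x = g
  ψ_surj : ∀ g ∈ elA a, IsCentre g U → ∃ x, ψ x = g

variable {a : L} {U V : P} {W : Type*} [AddCommGroup W]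

/-- Interchange the two directions. -/
@[reducible]
def Frame.swap (F : Frame a U V W) : Frame a V U W where
  memU := F.memV
  memV := F.memU
  ne := F.ne.symm
  φ := F.ψ
  ψ := F.φ
  φ_add := F.ψ_add
  ψ_add := F.φ_add
  φ_mem := F.ψ_mem
  ψ_mem := F.φ_mem
  φ_inj := F.ψ_inj
  ψ_inj := F.φ_inj
  φ_surj := F.ψ_surj
  ψ_surj := F.φ_surj

/-- `M` is the slope at `X`. -/
def IsSlope (F : Frame a U V W) (X : P) (M : AddMonoid.End W) : Prop :=
  ∀ x, IsCentre (F.φ x * F.ψ (M x)) X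

variable (F : Frame a U V W)

theorem Frame.φ_zero : F.φ 0 = 1 := by
  have h := F.φ_add 0 0
  rw [add_zero] at h
  exact mul_eq_left.1 h.symm

theorem Frame.ψ_zero : F.ψ 0 = 1 := F.swap.φ_zero

theorem Frame.φ_neg (x : W) : F.φ (-x) = (F.φ x)⁻¹ :=
  eq_inv_of_mul_eq_one_left (by rw [← F.φ_add, neg_add_cancel, F.φ_zero])

theorem Frame.ψ_neg (x : W) : F.ψ (-x) = (F.ψ x)⁻¹ := F.swap.φ_neg x

theorem Frame.mem_elA (x y : W) : F.φ x * F.ψ y ∈ elA a :=
  (elA a).mul_mem (F.φ_mem x).1 (F.ψ_mem y).1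

variable (h2 : TwoTrans P L)

include h2

theorem Frame.pair_mul (x y x' y' : W) :
    F.φ x * F.ψ y * (F.φ x' * F.ψ y') = F.φ (x + x') * F.ψ (y + y') := by
  rw [F.φ_add, F.ψ_add, mul_assoc, mul_assoc,
    ← mul_assoc (F.ψ y), elA_comm h2 (F.ψ_mem y).1 (F.φ_mem x').1, mul_assoc]

theorem Frame.pair_inv (x y : W) : (F.φ x * F.ψ y)⁻¹ = F.φ (-x) * F.ψ (-y) := by
  refine inv_eq_of_mul_eq_one_right ?_
  rw [F.pair_mul h2, add_neg_cancel, add_neg_cancel, F.φ_zero, F.ψ_zero, one_mul]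

/-- An elation decomposes along two directions. -/
theorem exists_decomp {X Y : P} (hX : X ∈ a) (hY : Y ∈ a) (hXY : X ≠ Y) {g : Coll P L}
    (hg : g ∈ elA a) :
    ∃ h ∈ elA a, IsCentre h Y ∧ IsCentre (h * g) X := by
  obtain ⟨O, hO⟩ := Nondegenerate.exists_point (P := P) a
  have hgO : g • O ∉ a := fun e => hO (by
    rwa [smul_mem_iff, show g⁻¹ • a = a from by rw [inv_smul_eq_iff, IsAxis.fix hg.1]] at e)
  set m : L := join O X with hm
  set m' : L := join (g • O) Y with hm'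
  have hma : m ≠ a := fun e => hO (e ▸ left_mem_join O X)
  have hma' : m' ≠ a := fun e => hgO (e ▸ left_mem_join (g • O) Y)
  have hmm : m ≠ m' := fun e =>
    hXY (point_eq hma (right_mem_join O X) hX (e ▸ right_mem_join (g • O) Y) hY)
  set y : P := meet m m' with hy
  have hyY : y ≠ Y := fun e =>
    hXY (point_eq hma (right_mem_join O X) hX (e ▸ meet_mem_left m m') hY)
  have hyX : y ≠ X := fun e =>
    hXY (point_eq hma' (e ▸ meet_mem_right m m') hX (right_mem_join (g • O) Y) hY)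
  obtain ⟨h, hh, hhy⟩ := elation_transitive h2 hY (right_mem_join (g • O) Y) hma'
    (left_mem_join (g • O) Y) (meet_mem_right m m') (fun e => hgO (e ▸ hY)) hyY
  obtain ⟨hhA, hhY⟩ := Subgroup.mem_inf.1 hh
  refine ⟨h, hhA, hhY, centre_of_fixed_line ((elA a).mul_mem hhA hg) ?_ hma (right_mem_join O X) hX⟩
  refine line_eq hyX ?_ ?_ (meet_mem_left m m') (right_mem_join O X)
  · have h1 := (smul_mem_smul (h * g) O m).2 (left_mem_join O X)
    rwa [mul_smul h g O, hhy] at h1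
  · have h1 := (smul_mem_smul (h * g) X m).2 (right_mem_join O X)
    rwa [((elA a).mul_mem hhA hg).1 X hX] at h1

theorem Frame.exists_pair {g : Coll P L} (hg : g ∈ elA a) : ∃ x y, F.φ x * F.ψ y = g := by
  obtain ⟨h, hh, hhU, hhg⟩ := exists_decomp h2 F.memV F.memU F.ne.symm hg
  obtain ⟨x, hx⟩ := F.φ_surj _ ((elA a).mul_mem hh hg) hhg
  obtain ⟨y, hy⟩ := F.ψ_surj h⁻¹ ((elA a).inv_mem hh) ((centreGroup U).inv_mem hhU)
  refine ⟨x, y, ?_⟩
  rw [hx, hy, elA_comm h2 hh hg, mul_inv_cancel_right]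

omit h2 in
theorem Frame.eq_zero_of_centre {x y : W} (h : IsCentre (F.φ x * F.ψ y) U) : x = 0 := by
  by_contra hx
  have h1 : IsCentre (F.φ x) U := by
    have h3 := (centreGroup U).mul_mem h ((centreGroup U).inv_mem (F.ψ_mem y).2)
    rwa [mul_inv_cancel_right, mem_centreGroup] at h3
  exact F.ne (centre_unique h1 (F.φ_mem x).2 fun e => hx (F.φ_inj (e.trans F.φ_zero.symm)))

theorem Frame.slope_unique_val {X : P} (hXU : X ≠ U) {x y y' : W}
    (h : IsCentre (F.φ x * F.ψ y) X) (h' : IsCentre (F.φ x * F.ψ y') X) : y = y' := by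
  by_contra hne
  have h1 : IsCentre (F.ψ (y - y')) X := by
    have h3 := (centreGroup X).mul_mem h ((centreGroup X).inv_mem h')
    rwa [F.pair_inv h2, F.pair_mul h2, add_neg_cancel, F.φ_zero, one_mul, ← sub_eq_add_neg,
      mem_centreGroup] at h3
  exact hXU (centre_unique h1 (F.ψ_mem _).2 fun e =>
    hne (sub_eq_zero.1 (F.ψ_inj (e.trans F.ψ_zero.symm))))

theorem exists_slope {X : P} (hX : X ∈ a) (hXU : X ≠ U) : ∃ M, IsSlope F X M := by
  have hex : ∀ x, ∃ y, IsCentre (F.φ x * F.ψ y) X := by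
    intro x
    obtain ⟨h, hh, hhU, hhg⟩ := exists_decomp h2 hX F.memU hXU (F.φ_mem x).1
    obtain ⟨y, hy⟩ := F.ψ_surj h hh hhU
    exact ⟨y, by rwa [hy, ← elA_comm h2 hh (F.φ_mem x).1]⟩
  choose f hf using hex
  refine ⟨AddMonoidHom.mk' f fun x x' => F.slope_unique_val h2 hXU (hf _) ?_, fun x => hf x⟩
  rw [← F.pair_mul h2]
  exact (centreGroup X).mul_mem (hf x) (hf x')

theorem IsSlope.unique {X : P} (hXU : X ≠ U) {M N : AddMonoid.End W} (h : IsSlope F X M)
    (h' : IsSlope F X N) : M = N :=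
  AddMonoidHom.ext fun x => F.slope_unique_val h2 hXU (h x) (h' x)

omit h2 in
theorem isSlope_zero : IsSlope F V 0 := fun x => by
  rw [show (0 : AddMonoid.End W) x = 0 from rfl, F.ψ_zero, mul_one]
  exact (F.φ_mem x).2

omit h2 in
theorem IsSlope.inj [Nontrivial W] {X Y : P} {M : AddMonoid.End W} (h : IsSlope F X M)
    (h' : IsSlope F Y M) : X = Y := by
  obtain ⟨x, hx⟩ := exists_ne (0 : W)
  refine centre_unique (h x) (h' x) fun e => hx (F.eq_zero_of_centre (y := M x) ?_)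
  rw [e]
  exact (centreGroup U).one_mem

/-- A shear adds a constant to all slopes. -/
theorem exists_shear {X : P} (hX : X ∈ a) (hXU : X ≠ U) {M : AddMonoid.End W}
    (hM : IsSlope F X M) :
    ∃ g : Coll P L, g • U = U ∧ g • a = a ∧ g • V = X ∧
      ∀ (Y : P) (N : AddMonoid.End W), IsSlope F Y N → IsSlope F (g • Y) (M + N) := by
  obtain ⟨O, hO⟩ := Nondegenerate.exists_point (P := P) a
  set j : L := join O U with hj
  have hja : j ≠ a := fun e => hO (e ▸ left_mem_join O U)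
  obtain ⟨g, hg, hgV⟩ := elation_transitive h2 (right_mem_join O U) F.memU hja.symm F.memV hX
    F.ne.symm hXU
  obtain ⟨hgA, hgU⟩ := Subgroup.mem_inf.1 hg
  have hga : g • a = a := hgU a F.memU
  have hgO : g • O = O := hgA.1 O (left_mem_join O U)
  have hconj : ∀ t ∈ elA a, g * t * g⁻¹ ∈ elA a := by
    intro t ht
    obtain ⟨c, hc, hct⟩ := exists_centre_of_mem_elA ht
    have h1 := IsAxis.conj ht.1 g
    rw [hga] at h1
    exact mem_elA_of_elation h1 (hct.conj g) (hga ▸ (smul_mem_smul g c a).2 hc)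
  have hψ : ∀ y, g * F.ψ y * g⁻¹ = F.ψ y := by
    intro y
    refine mul_inv_eq_one.1 (((elA a).mul_mem (hconj _ (F.ψ_mem y).1)
      ((elA a).inv_mem (F.ψ_mem y).1)).2 O hO ?_)
    have hfix : ∀ p : P, p ∈ j → g • p = p := fun p hp => hgA.1 p hp
    have hz : (F.ψ y)⁻¹ • O ∈ j := by
      rw [← show (F.ψ y)⁻¹ • j = j from by
        rw [inv_smul_eq_iff, (F.ψ_mem y).2 j (right_mem_join O U)]]
      exact (smul_mem_smul _ O j).2 (left_mem_join O U)
    have hgi : ∀ p : P, p ∈ j → g⁻¹ • p = p := fun p hp => by rw [inv_smul_eq_iff, hfix p hp]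
    rw [mul_smul, mul_smul, mul_smul, hgi _ hz, smul_inv_smul, hgO]
  refine ⟨g, hgU.fix, hga, hgV, fun Y N hN x => ?_⟩
  have hφ : g * F.φ x * g⁻¹ = F.φ x * F.ψ (M x) := by
    have hc : IsCentre ((F.φ x)⁻¹ * (g * F.φ x * g⁻¹)) U := by
      have h1 : IsCentre ((F.φ x)⁻¹ * g * ((F.φ x)⁻¹)⁻¹) U := by
        have h3 := IsCentre.conj hgU (F.φ x)⁻¹
        rwa [((elA a).inv_mem (F.φ_mem x).1).1 U F.memU] at h3
      have h3 := (centreGroup U).mul_mem h1 ((centreGroup U).inv_mem hgU)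
      rwa [inv_inv, mem_centreGroup, mul_assoc ((F.φ x)⁻¹), mul_assoc] at h3
    obtain ⟨y, hy⟩ := F.ψ_surj _
      ((elA a).mul_mem ((elA a).inv_mem (F.φ_mem x).1) (hconj _ (F.φ_mem x).1)) hc
    have h4 : F.φ x * F.ψ y = g * F.φ x * g⁻¹ := by rw [hy, mul_inv_cancel_left]
    have h5 : IsCentre (F.φ x * F.ψ y) X := h4 ▸ hgV ▸ (F.φ_mem x).2.conj g
    rw [← h4, F.slope_unique_val h2 hXU h5 (hM x)]
  have h6 := (hN x).conj g
  rw [show g * (F.φ x * F.ψ (N x)) * g⁻¹ = g * F.φ x * g⁻¹ * (g * F.ψ (N x) * g⁻¹) by group, hφ,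
    hψ, mul_assoc, ← F.ψ_add] at h6
  exact h6

/-- The slopes form an additive group. -/
noncomputable def slopes : AddSubgroup (AddMonoid.End W) where
  carrier := {M | ∃ X : P, X ∈ a ∧ X ≠ U ∧ IsSlope F X M}
  zero_mem' := ⟨V, F.memV, F.ne.symm, isSlope_zero F⟩
  add_mem' := by
    rintro M N ⟨X, hX, hXU, hM⟩ ⟨Y, hY, hYU, hN⟩
    obtain ⟨g, hgU, hga, -, hg⟩ := exists_shear F h2 hX hXU hM
    refine ⟨g • Y, hga ▸ (smul_mem_smul g Y a).2 hY,
      fun e => hYU (smul_left_cancel g (e.trans hgU.symm)), hg Y N hN⟩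
  neg_mem' := by
    rintro M ⟨X, hX, hXU, hM⟩
    obtain ⟨g, hgU, hga, -, hg⟩ := exists_shear F h2 hX hXU hM
    have hY : g⁻¹ • V ∈ a := by
      have h1 := F.memV
      nth_rw 1 [← hga] at h1
      exact (mem_smul_iff g V a).1 h1
    have hYU : g⁻¹ • V ≠ U := fun e => F.ne (by rw [← hgU, ← e, smul_inv_smul])
    obtain ⟨N, hN⟩ := exists_slope F h2 hY hYU
    refine ⟨g⁻¹ • V, hY, hYU, ?_⟩
    have h1 := hg _ N hN
    rw [smul_inv_smul] at h1
    rwa [eq_neg_of_add_eq_zero_left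
      (IsSlope.unique F h2 F.ne.symm h1 (isSlope_zero F)), neg_neg]

/-- Slopes in exchanged directions are inverse. -/
theorem slope_mul_swap {X : P} (hXV : X ≠ V) {M N : AddMonoid.End W}
    (hM : IsSlope F X M) (hN : IsSlope F.swap X N) : N * M = 1 := by
  refine AddMonoidHom.ext fun x => ?_
  have h1 := hN (M x)
  rw [elA_comm h2 (F.ψ_mem _).1 (F.φ_mem _).1] at h1
  have h3 : IsCentre (F.φ x * F.ψ (M x)) X := hM x
  exact F.swap.slope_unique_val h2 hXV
    (y := N (M x)) (y' := x) (x := M x) (hN (M x)) (by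
      show IsCentre (F.ψ (M x) * F.φ x) X
      rwa [elA_comm h2 (F.ψ_mem _).1 (F.φ_mem _).1])

/-- With a unit slope the slopes form a commutative field acting regularly. -/
theorem slopes_good [Nontrivial W] [Finite W] {Z : P} (hZ : Z ∈ a) (hZU : Z ≠ U)
    (hZ1 : IsSlope F Z 1) : H34.UnitSpace.Good (slopes F h2) := by
  have : Nontrivial (AddMonoid.End W) := ⟨⟨1, 0, fun e => by
    obtain ⟨x, hx⟩ := exists_ne (0 : W)
    exact hx (DFunLike.congr_fun e x)⟩⟩
  refine H34.UnitSpace.good_of_pair (J' := slopes F.swap h2) ⟨Z, hZ, hZU, hZ1⟩ ?_ ?_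
  · rintro M ⟨X, hX, hXU, hM⟩ hM0
    have hXV : X ≠ V := by
      rintro rfl
      exact hM0 (IsSlope.unique F h2 hXU hM (isSlope_zero F))
    obtain ⟨N, hN⟩ := exists_slope F.swap h2 hX hXV
    exact ⟨N, ⟨X, hX, hXV, hN⟩, slope_mul_swap F.swap h2 hXU hN hM,
      slope_mul_swap F h2 hXV hM hN⟩
  · rintro N ⟨X, hX, hXV, hN⟩ hN0
    have hXU : X ≠ U := by
      rintro rfl
      exact hN0 (IsSlope.unique F.swap h2 hXV hN (isSlope_zero F.swap))
    obtain ⟨M, hM⟩ := exists_slope F h2 hX hXU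
    exact ⟨M, ⟨X, hX, hXU, hM⟩, slope_mul_swap F.swap h2 hXU hN hM,
      slope_mul_swap F h2 hXV hM hN⟩

end Cfsg.Agent.H27.OW
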