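import Mathlib
import Cfsg.Agent.H27.OW.Frame

/-!
# Coordinates for a two-transitive plane
-/

set_option autoImplicit false
set_option linter.unusedSectionVars false

universe u v

namespace Cfsg.Agent.H27.OW

open Configuration Configuration.ProjectivePlane

variable {P : Type u} {L : Type v} [Membership P L] [ProjectivePlane P L] [Finite P] [Finite L]

theorem decomp_unique {a : L} {X Y : P} (hXY : X ≠ Y) {g h h' : Coll P L} (hc : IsCentre h Y)
    (hc' : IsCentre h' Y) (hx : IsCentre (h * g) X) (hx' : IsCentre (h' * g) X) : h = h' := by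
  have h1 := (centreGroup X).mul_mem hx ((centreGroup X).inv_mem hx')
  rw [mul_inv_rev, mul_assoc, mul_inv_cancel_left] at h1
  have h2 := (centreGroup Y).mul_mem hc ((centreGroup Y).inv_mem hc')
  by_contra hne
  exact hXY (centre_unique h1 h2 fun e => hne (mul_inv_eq_one.1 e))

theorem natCard_centre (h2 : TwoTrans P L) {a : L} {X : P} (hX : X ∈ a) :
    Nat.card ↥(elA a ⊓ centreGroup X) = order P L := (elA_counts h2 a).2 X hX

/-- A frame with a unit slope. -/
theorem exists_frame (h2 : TwoTrans P L) (a : L) :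
    ∃ (W : Type (max u v)) (_ : AddCommGroup W) (_ : Finite W) (U V : P) (F : Frame a U V W),
      Nat.card W = order P L ∧ ∃ Z, Z ∈ a ∧ Z ≠ U ∧ IsSlope F Z 1 := by
  obtain ⟨U, hU, -⟩ := exists_point_on_ne (P := P) a (meet a a)
  obtain ⟨V, hV, hVU⟩ := exists_point_on_ne a U
  obtain ⟨Z, hZ, hZU, hZV⟩ := exists_point_on_ne₂ a U V
  set B : Subgroup (Coll P L) := elA a ⊓ centreGroup V with hB
  letI : CommGroup B :=
    { (inferInstance : Group B) with
      mul_comm := fun x y => Subtype.ext (elA_comm h2 x.2.1 y.2.1) }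
  have hex : ∀ b : B, ∃ c ∈ elA a, IsCentre c U ∧ IsCentre (c * (b : Coll P L)) Z := fun b =>
    exists_decomp h2 hZ hU hZU b.2.1
  choose ψ hψE hψU hψZ using hex
  refine ⟨Additive B, inferInstance, inferInstance, U, V,
    { memU := hU
      memV := hV
      ne := hVU.symm
      φ := fun x => ((Additive.toMul x : B) : Coll P L)
      ψ := fun x => ψ (Additive.toMul x)
      φ_add := fun _ _ => rfl
      ψ_add := fun x y => ?_
      φ_mem := fun x => ⟨(Additive.toMul x).2.1, (Additive.toMul x).2.2⟩
      ψ_mem := fun x => ⟨hψE _, hψU _⟩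
      φ_inj := fun x y e => Additive.toMul.injective (Subtype.ext e)
      ψ_inj := fun x y e => ?_
      φ_surj := fun g hg hc => ⟨Additive.ofMul ⟨g, hg, hc⟩, rfl⟩
      ψ_surj := fun g hg hc => ?_ }, ?_, Z, hZ, hZU, ?_⟩
  · refine decomp_unique (a := a) hZU (hψU _) ((centreGroup U).mul_mem (hψU _) (hψU _)) (hψZ _) ?_
    have h1 : ψ (Additive.toMul x) * ψ (Additive.toMul y) *
        ((Additive.toMul (x + y) : B) : Coll P L) =
        ψ (Additive.toMul x) * (Additive.toMul x : B).1 *
          (ψ (Additive.toMul y) * (Additive.toMul y : B).1) := by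
      rw [toMul_add, Subgroup.coe_mul, mul_assoc, mul_assoc,
        ← mul_assoc (ψ (Additive.toMul y)), elA_comm h2 (hψE _) (Additive.toMul x).2.1, mul_assoc]
    rw [h1]
    exact (centreGroup Z).mul_mem (hψZ _) (hψZ _)
  · simp only at e
    have h1 := hψZ (Additive.toMul x)
    have h3 := hψZ (Additive.toMul y)
    rw [e] at h1
    rw [elA_comm h2 (hψE _) (Additive.toMul x).2.1] at h1
    rw [elA_comm h2 (hψE _) (Additive.toMul y).2.1] at h3
    exact Additive.toMul.injective
      (Subtype.ext (decomp_unique (a := a) hZV (Additive.toMul x).2.2 (Additive.toMul y).2.2 h1 h3))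
  · obtain ⟨b, hb, hbV, hbg⟩ := exists_decomp h2 hZ hV hZV hg
    refine ⟨Additive.ofMul ⟨b, Subgroup.mem_inf.2 ⟨hb, hbV⟩⟩,
      decomp_unique (a := a) hZU (hψU _) hc (hψZ _) ?_⟩
    show IsCentre (g * b) Z
    rw [elA_comm h2 hg hb]
    exact hbg
  · exact (Nat.card_congr Additive.toMul).trans (natCard_centre h2 hV)
  · intro x
    show IsCentre ((Additive.toMul x : B).1 * ψ (Additive.toMul x)) Z
    rw [elA_comm h2 (Additive.toMul x).2.1 (hψE _)]
    exact hψZ _

theorem centre_iff_mem {a : L} {X O : P} (hX : X ∈ a) (hO : O ∉ a) {g g₀ : Coll P L}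
    (hg : g ∈ elA a) (hg₀ : g₀ ∈ elA a) {l : L} (hl : g₀ • O ∈ l) (hXl : X ∈ l) :
    g • O ∈ l ↔ IsCentre (g * g₀⁻¹) X := by
  have hd : g * g₀⁻¹ ∈ elA a := (elA a).mul_mem hg ((elA a).inv_mem hg₀)
  have hoff : ∀ t ∈ elA a, t • O ∉ a := fun t ht e => hO (by
    rwa [smul_mem_iff, show t⁻¹ • a = a from by rw [inv_smul_eq_iff, IsAxis.fix ht.1]] at e)
  have hla : l ≠ a := fun e => hoff g₀ hg₀ (e ▸ hl)
  constructor
  · intro h
    refine centre_of_fixed_line hd ?_ hla hXl hX
    refine line_eq (fun e : g • O = X => hoff g hg (e ▸ hX)) ?_ ?_ h hXl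
    · have h1 := (smul_mem_smul (g * g₀⁻¹) _ l).2 hl
      rwa [mul_smul g g₀⁻¹ (g₀ • O), inv_smul_smul] at h1
    · have h1 := (smul_mem_smul (g * g₀⁻¹) X l).2 hXl
      rwa [hd.1 X hX] at h1
  · intro h
    have h1 := (smul_mem_smul (g * g₀⁻¹) _ l).2 hl
    rwa [h l hXl, mul_smul g g₀⁻¹ (g₀ • O), inv_smul_smul] at h1

/-- Coordinates over a finite field. -/
theorem coordinatise (h2 : TwoTrans P L) :
    ∃ (K : Type (max u v)) (_ : Field K) (_ : Finite K) (f : P → Fin 3 → K),
      (∀ p, f p ≠ 0) ∧ (∀ p q (c : K), f p = c • f q → p = q) ∧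
      (∀ w : Fin 3 → K, w ≠ 0 → ∃ (p : P) (c : K), w = c • f p) ∧
      ∀ l : L, ∃ w : Fin 3 → K, w ≠ 0 ∧
        ∀ p : P, p ∈ l ↔ w 0 * f p 0 + w 1 * f p 1 + w 2 * f p 2 = 0 := by
  classical
  obtain ⟨p₀⟩ : Nonempty P := by
    rcases isEmpty_or_nonempty P with hP | hP
    · exfalso
      have := natCard_points (P := P) (L := L)
      rw [Nat.card_of_isEmpty] at this
      omega
    · exact hP
  obtain ⟨a, -⟩ := exists_mem_line (L := L) p₀
  obtain ⟨O, hO⟩ := Nondegenerate.exists_point (P := P) a
  obtain ⟨W, _, _, U, V, F, hW, Z, hZ, hZU, hZ1⟩ := exists_frame h2 a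
  have hn := two_le_order (P := P) (L := L)
  have : Nontrivial W := Finite.one_lt_card_iff_nontrivial.1 (by omega)
  obtain ⟨x0, hx0⟩ := exists_ne (0 : W)
  have : Finite (AddMonoid.End W) := Finite.of_injective _ (DFunLike.coe_injective (F := AddMonoid.End W))
  have : Nontrivial (AddMonoid.End W) := ⟨⟨1, 0, fun e => hx0 (DFunLike.congr_fun e x0)⟩⟩
  set J := slopes F h2 with hJ
  have hG := slopes_good F h2 hZ hZU hZ1
  -- slopes correspond to directions
  choose sl hsl using fun X : {X : P // X ∈ a ∧ X ≠ U} => exists_slope F h2 X.2.1 X.2.2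
  have hev : Function.Injective fun M : J => (M : AddMonoid.End W) x0 := by
    intro M N e
    by_contra hne
    obtain ⟨d, -, -, hdM⟩ := hG.unit ((M : AddMonoid.End W) - N) (sub_mem M.2 N.2)
      (sub_ne_zero.2 fun e' => hne (Subtype.ext e'))
    refine hx0 ?_
    have h1 := DFunLike.congr_fun hdM x0
    have h3 : ((M : AddMonoid.End W) - N) x0 = 0 := sub_eq_zero.2 e
    rw [AddMonoid.End.coe_mul, Function.comp_apply, h3, map_zero] at h1
    exact h1.symm
  have hbij : Function.Bijective fun M : J => (M : AddMonoid.End W) x0 := by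
    refine hev.bijective_of_nat_card_le ?_
    rw [hW, ← ncard_pts_ne (L := L) F.memU, ← Nat.card_coe_set_eq]
    refine Nat.card_le_card_of_injective
      (fun X => (⟨sl X, X.1, X.2.1, X.2.2, hsl X⟩ : J)) fun X Y e => ?_
    have e' : sl X = sl Y := congrArg Subtype.val e
    have h1 := hsl X
    rw [e'] at h1
    exact Subtype.ext (IsSlope.inj F h1 (hsl Y))
  let K : Subring (AddMonoid.End W) :=
    { carrier := J
      one_mem' := hG.one
      zero_mem' := J.zero_mem
      add_mem' := fun h h' => J.add_mem h h'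
      neg_mem' := fun h => J.neg_mem h
      mul_mem' := by
        intro A B hA hB
        obtain ⟨C, hC⟩ := hbij.surjective ((A * B) x0)
        have h1 : A * B = C := AddMonoidHom.ext fun x => by
          obtain ⟨M, rfl⟩ := hbij.surjective x
          have hM := M.2
          change (A * B * (M : AddMonoid.End W)) x0 = ((C : AddMonoid.End W) * M) x0
          have e1 : A * B * (M : AddMonoid.End W) = M * (A * B) := by
            rw [mul_assoc, hG.comm hB hM, ← mul_assoc, hG.comm hA hM, mul_assoc]
          have e2 : (C : AddMonoid.End W) * M = M * C := hG.comm C.2 hM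
          rw [e1, e2]
          exact congrArg (M : AddMonoid.End W) hC.symm
        exact h1 ▸ C.2 }
  letI : CommRing K :=
    { (inferInstance : Ring K) with mul_comm := fun A B => Subtype.ext (hG.comm A.2 B.2) }
  have hfield : IsField K := by
    refine ⟨⟨0, 1, zero_ne_one⟩, fun A B => mul_comm A B, ?_⟩
    intro A hA
    obtain ⟨B, hB, hAB, -⟩ := hG.unit A.1 A.2 (fun e => hA (Subtype.ext e))
    exact ⟨⟨B, hB⟩, Subtype.ext hAB⟩
  letI : Field K := hfield.toField
  let e : K ≃ W := Equiv.ofBijective (fun M : K => (M : AddMonoid.End W) x0) hbij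
  have he_sub : ∀ A B : K, e (A - B) = e A - e B := fun _ _ => rfl
  have he_mul : ∀ A B : K, (A : AddMonoid.End W) (e B) = e (A * B) := fun _ _ => rfl
  -- elations and coordinates
  let pair : K → K → Coll P L := fun x y => F.φ (e x) * F.ψ (e y)
  have hpairE : ∀ x y, pair x y ∈ elA a := fun x y => F.mem_elA _ _
  have hdiff : ∀ x y x' y' : K, pair x y * (pair x' y')⁻¹ = pair (x - x') (y - y') := by
    intro x y x' y'
    simp only [pair]
    rw [F.pair_inv h2, F.pair_mul h2, he_sub, he_sub, sub_eq_add_neg, sub_eq_add_neg]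
  have hpair_inj : ∀ {x y x' y' : K}, pair x y = pair x' y' → x = x' ∧ y = y' := by
    intro x y x' y' h
    have h1 : F.φ (e (x - x')) * F.ψ (e (y - y')) = 1 := by
      have := hdiff x y x' y'
      rw [h, mul_inv_cancel] at this
      exact this.symm
    have h3 := F.eq_zero_of_centre (x := e (x - x')) (y := e (y - y'))
      (by rw [h1]; exact (centreGroup U).one_mem)
    rw [h3, F.φ_zero, one_mul] at h1
    have h4 := F.ψ_inj (h1.trans F.ψ_zero.symm)
    have hz : ∀ A B : K, e (A - B) = 0 → A = B := fun A B hAB => by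
      rw [he_sub, sub_eq_zero] at hAB
      exact e.injective hAB
    exact ⟨hz _ _ h3, hz _ _ h4⟩
  have hoff : ∀ p : P, p ∉ a → ∃ x y : K, pair x y • O = p := by
    intro p hp
    obtain ⟨g, hg, hgp⟩ := elA_transitive h2 hO hp
    obtain ⟨x, y, rfl⟩ := F.exists_pair h2 hg
    refine ⟨e.symm x, e.symm y, ?_⟩
    simp only [pair, Equiv.apply_symm_apply]
    exact hgp
  choose cx cy hc using hoff
  have hnota : ∀ x y : K, pair x y • O ∉ a := fun x y h => hO (by
    rwa [smul_mem_iff, show (pair x y)⁻¹ • a = a from by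
      rw [inv_smul_eq_iff, IsAxis.fix (hpairE x y).1]] at h)
  have hcoord : ∀ (p : P) (hp : p ∉ a) (x y : K), pair x y • O = p → cx p hp = x ∧ cy p hp = y := by
    intro p hp x y h
    refine hpair_inj (inv_mul_eq_one.1 ((hpairE x y) |> fun hm =>
      ((elA a).mul_mem ((elA a).inv_mem (hpairE (cx p hp) (cy p hp))) hm).2 O hO ?_))
    rw [mul_smul, h, inv_smul_eq_iff, hc p hp]
  let slK : {X : P // X ∈ a ∧ X ≠ U} → K := fun X => ⟨sl X, X.1, X.2.1, X.2.2, hsl X⟩
  let f : P → Fin 3 → K := fun p =>
    if hp : p ∈ a then if hpU : p = U then ![0, 1, 0] else ![1, slK ⟨p, hp, hpU⟩, 0]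
    else ![cx p hp, cy p hp, 1]
  have fU : f U = ![0, 1, 0] := by simp only [f, dif_pos F.memU, dite_true]
  have fInf : ∀ (p : P) (hp : p ∈ a) (hpU : p ≠ U), f p = ![1, slK ⟨p, hp, hpU⟩, 0] :=
    fun p hp hpU => by simp only [f, dif_pos hp, dif_neg hpU]
  have fAff : ∀ (p : P) (hp : p ∉ a), f p = ![cx p hp, cy p hp, 1] :=
    fun p hp => by simp only [f, dif_neg hp]
  refine ⟨K, inferInstance, inferInstance, f, ?_, ?_, ?_, ?_⟩
  · intro p h0
    by_cases hp : p ∈ a
    · by_cases hpU : p = U
      · subst hpU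
        rw [fU] at h0
        simpa using congrFun h0 1
      · rw [fInf p hp hpU] at h0
        simpa using congrFun h0 0
    · rw [fAff p hp] at h0
      simpa using congrFun h0 2
  · intro p q c h
    by_cases hp : p ∈ a
    · by_cases hq : q ∈ a
      · by_cases hpU : p = U
        · by_cases hqU : q = U
          · rw [hpU, hqU]
          · exfalso
            subst hpU
            rw [fU, fInf q hq hqU] at h
            have h0 : (0 : K) = c := by simpa using congrFun h 0
            have h1 : (1 : K) = c * slK ⟨q, hq, hqU⟩ := by simpa using congrFun h 1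
            rw [← h0, zero_mul] at h1
            exact one_ne_zero h1
        · by_cases hqU : q = U
          · exfalso
            subst hqU
            rw [fU, fInf p hp hpU] at h
            simpa using congrFun h 0
          · rw [fInf p hp hpU, fInf q hq hqU] at h
            have h0 : (1 : K) = c := by simpa using congrFun h 0
            have h1 : slK ⟨p, hp, hpU⟩ = c * slK ⟨q, hq, hqU⟩ := by simpa using congrFun h 1
            rw [← h0, one_mul] at h1
            have h3 : sl ⟨p, hp, hpU⟩ = sl ⟨q, hq, hqU⟩ := congrArg Subtype.val h1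
            have h4 := hsl ⟨p, hp, hpU⟩
            rw [h3] at h4
            exact IsSlope.inj F h4 (hsl ⟨q, hq, hqU⟩)
      · exfalso
        have h2' : f p 2 = c * f q 2 := congrFun h 2
        have h0 : f p 2 = 0 := by
          by_cases hpU : p = U
          · subst hpU; rw [fU]; rfl
          · rw [fInf p hp hpU]; rfl
        rw [h0, fAff q hq] at h2'
        have hc0 : c = 0 := by simpa using h2'.symm
        by_cases hpU : p = U
        · subst hpU
          rw [fU, hc0, zero_smul] at h
          simpa using congrFun h 1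
        · rw [fInf p hp hpU, hc0, zero_smul] at h
          simpa using congrFun h 0
    · by_cases hq : q ∈ a
      · exfalso
        have h2' : f p 2 = c * f q 2 := congrFun h 2
        have h0 : f q 2 = 0 := by
          by_cases hqU : q = U
          · subst hqU; rw [fU]; rfl
          · rw [fInf q hq hqU]; rfl
        rw [h0, fAff p hp, mul_zero] at h2'
        simp at h2'
      · rw [fAff p hp, fAff q hq] at h
        have hc1 : (1 : K) = c := by simpa using congrFun h 2
        have h0 : cx p hp = c * cx q hq := by simpa using congrFun h 0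
        have h1 : cy p hp = c * cy q hq := by simpa using congrFun h 1
        rw [← hc1, one_mul] at h0 h1
        rw [← hc p hp, h0, h1, hc q hq]
  · intro w hw
    by_cases h2' : w 2 = 0
    · by_cases h0 : w 0 = 0
      · refine ⟨U, w 1, ?_⟩
        rw [fU]
        funext i
        fin_cases i <;> simp [h0, h2']
      · obtain ⟨X, hX, hXU, hXs⟩ := (w 1 / w 0).2
        refine ⟨X, w 0, ?_⟩
        have hs : slK ⟨X, hX, hXU⟩ = w 1 / w 0 :=
          Subtype.ext (IsSlope.unique F h2 hXU (hsl ⟨X, hX, hXU⟩) hXs)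
        rw [fInf X hX hXU, hs]
        funext i
        fin_cases i <;> simp [h2', mul_div_cancel₀ _ h0]
    · refine ⟨pair (w 0 / w 2) (w 1 / w 2) • O, w 2, ?_⟩
      obtain ⟨h0, h1⟩ := hcoord _ (hnota (w 0 / w 2) (w 1 / w 2)) _ _ rfl
      rw [fAff _ (hnota _ _), h0, h1]
      funext i
      fin_cases i <;> simp [mul_div_cancel₀ _ h2']
  · intro l
    by_cases hla : l = a
    · subst hla
      refine ⟨![0, 0, 1], fun h => by simpa using congrFun h 2, fun p => ?_⟩
      by_cases hp : p ∈ l
      · by_cases hpU : p = U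
        · subst hpU; simp [hp, fU]
        · simp [hp, fInf p hp hpU]
      · simp [hp, fAff p hp]
    set X : P := meet l a with hX
    have hXl : X ∈ l := meet_mem_left l a
    have hXa : X ∈ a := meet_mem_right l a
    obtain ⟨q, hql, hqX⟩ := exists_point_on_ne l X
    have hqa : q ∉ a := fun h => hqX (point_eq hla hql h hXl hXa)
    set x₀ := cx q hqa with hx₀
    set y₀ := cy q hqa with hy₀
    have hq0 : pair x₀ y₀ • O ∈ l := by rw [hc q hqa]; exact hql
    have hmem : ∀ (p : P) (hp : p ∉ a),
        p ∈ l ↔ IsCentre (F.φ (e (cx p hp - x₀)) * F.ψ (e (cy p hp - y₀))) X := by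
      intro p hp
      conv_lhs => rw [← hc p hp]
      rw [centre_iff_mem hXa hO (hpairE _ _) (hpairE x₀ y₀) hq0 hXl, hdiff]
    have hinf : ∀ p : P, p ∈ a → (p ∈ l ↔ p = X) := fun p hp =>
      ⟨fun h => point_eq hla h hp hXl hXa, fun h => h ▸ hXl⟩
    have he0 : ∀ A : K, e A = 0 ↔ A = 0 := fun A =>
      ⟨fun h => e.injective (h.trans (rfl : (0 : W) = e 0)), fun h => by rw [h]; rfl⟩
    by_cases hXU : X = U
    · refine ⟨![1, 0, -x₀], fun h => by simpa using congrFun h 0, fun p => ?_⟩
      by_cases hp : p ∈ a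
      · rw [hinf p hp, hXU]
        by_cases hpU : p = U
        · subst hpU; simp [fU]
        · simp [hpU, fInf p hp hpU]
      · rw [hmem p hp, fAff p hp]
        have : IsCentre (F.φ (e (cx p hp - x₀)) * F.ψ (e (cy p hp - y₀))) X ↔ cx p hp - x₀ = 0 := by
          rw [hXU]
          refine ⟨fun h => (he0 _).1 (F.eq_zero_of_centre h), fun h => ?_⟩
          rw [(he0 _).2 h, F.φ_zero, one_mul]
          exact (F.ψ_mem _).2
        rw [this]
        simp [sub_eq_add_neg]
    · set M : K := slK ⟨X, hXa, hXU⟩ with hM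
      refine ⟨![M, -1, y₀ - M * x₀], fun h => by simpa using congrFun h 1, fun p => ?_⟩
      by_cases hp : p ∈ a
      · rw [hinf p hp]
        by_cases hpU : p = U
        · subst hpU; simp [fU, Ne.symm hXU]
        · rw [fInf p hp hpU]
          simp only [Matrix.cons_val_zero, Matrix.cons_val_one, Matrix.cons_val_two,
            Matrix.tail_cons, Matrix.head_cons, mul_one, mul_zero, add_zero, neg_mul, one_mul,
            ← sub_eq_add_neg, sub_eq_zero]
          constructor
          · rintro rfl; rfl
          · intro h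
            have h3 : sl ⟨X, hXa, hXU⟩ = sl ⟨p, hp, hpU⟩ := congrArg Subtype.val h
            have h4 := hsl ⟨X, hXa, hXU⟩
            rw [h3] at h4
            exact IsSlope.inj F (hsl ⟨p, hp, hpU⟩) h4
      · rw [hmem p hp, fAff p hp]
        have hMs : IsSlope F X M := hsl ⟨X, hXa, hXU⟩
        have : IsCentre (F.φ (e (cx p hp - x₀)) * F.ψ (e (cy p hp - y₀))) X ↔
            cy p hp - y₀ = M * (cx p hp - x₀) := by
          constructor
          · intro h
            refine e.injective (F.slope_unique_val h2 hXU h ?_)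
            rw [← he_mul]
            exact hMs _
          · intro h
            rw [h, ← he_mul]
            exact hMs _
        rw [this, ← sub_eq_zero]
        simp only [Matrix.cons_val_zero, Matrix.cons_val_one, Matrix.cons_val_two,
          Matrix.tail_cons, Matrix.head_cons, mul_one]
        constructor <;> intro h <;> linear_combination -h

end Cfsg.Agent.H27.OW
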