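import Mathlib

/-!
# A finite field lives in the lowest universe
-/

set_option autoImplicit false

universe w

namespace Cfsg.Agent.H27.OW

/-- A copy of `Fin n` without its arithmetic. -/
def SmallCarrier (n : ℕ) : Type := Fin n

open Classical in
theorem exists_small_field (K : Type w) [Field K] [Finite K] :
    ∃ (F : Type) (_ : Field F) (_ : Fintype F), Nonempty (K ≃+* F) := by
  let e : SmallCarrier (Nat.card K) ≃ K := (Finite.equivFin K).symm
  letI : Field (SmallCarrier (Nat.card K)) := e.field
  have hf : Finite (SmallCarrier (Nat.card K)) := Finite.of_equiv K e.symm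
  haveI : Fintype (SmallCarrier (Nat.card K)) := Fintype.ofFinite _
  exact ⟨SmallCarrier (Nat.card K), inferInstance, inferInstance, ⟨(e.ringEquiv).symm⟩⟩

end Cfsg.Agent.H27.OW
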